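import Cfsg.Agent.JFourType.Mat.Fine

/-!
Kernel checks: the six lines in the fixed space are recognised from a root and from an involution.
-/

set_option autoImplicit false
set_option maxRecDepth 100000

namespace Cfsg.Agent.JFourType.Mat

open Cfsg.Agent.CosetCert Cfsg.Agent.GFour25
open Cfsg.Agent.SporB.FischerU (Vec vecN enc vecN_enc enc_lt)
open Cfsg.Agent.LargeFischer.Thompson
open Cfsg.Agent.TTClass
open Data FineData

/-- Number of moved vectors whose sum with the given one is a root. -/
noncomputable def rootCount (k v : ℕ) : ℕ := ((mvL k).filter fun m => rootR (v ^^^ m)).length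

/-- The line of a code. -/
noncomputable def lineOf (n : ℕ) : List ℕ := [n, apL omL n, apL omL (apL omL n)]

/-- A root orthogonal to a line with no root sum with it. -/
noncomputable def farB (w v : ℕ) : Bool :=
  (lineOf w).all fun x => !(rootR (x ^^^ v)) && comB x v

/-- A root fixed by an involution is in the fixed space if its count is at most six. -/
noncomputable def countOK (k : ℕ) : Bool :=
  (allB (fun v => !(rootR v) ||
    (!(Nat.beq (apL (aL k) v) v) || (!(Nat.ble (rootCount k v) 6) || uList.contains v))) 12 0) &&
  six.all fun i => thr.all fun l => Nat.ble (rootCount k (wN i l)) 6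

theorem countOK_true : (fifteen.all countOK) = true := by decide +kernel

/-- A root far from a line lies in the fixed space. -/
noncomputable def farOK (i : ℕ) : Bool :=
  (allB (fun v => !(rootR v) || (!(farB (wN i 0) v) || uList.contains v)) 12 0) &&
  ((thr.all fun l => (lineOf (wN i 0)).contains (wN i l)) &&
    ((lineOf (wN i 0)).all fun x => uList.contains x && rootR x) &&
    six.all fun j => Nat.beq i j || thr.all fun l => farB (wN i 0) (wN j l))

theorem farOK_true : (six.all farOK) = true := by decide +kernel

/-- The basis of the fixed space consists of sums of two roots of it. -/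
noncomputable def sumOK : Bool :=
  let l := 0 :: (six.flatMap fun i => thr.map fun k => wN i k)
  six.all fun b => l.any fun x => l.any fun y => Nat.beq (uBasis.getD b 0) (x ^^^ y)

theorem sumOK_true : sumOK = true := by decide +kernel

end Cfsg.Agent.JFourType.Mat
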