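import Cfsg.Agent.JFourType.Mat.Orbit
import Cfsg.Agent.JFourType.Mat.CentCheck
import Cfsg.Agent.JFourType.ThreeFacts
import Cfsg.Agent.JFourType.PFrame

/-!
An element of the involution centraliser commuting with an element of `2^11` not conjugate to `z`
normalises `2^11`.
-/

set_option autoImplicit false
set_option maxRecDepth 100000
set_option linter.unusedSectionVars false

namespace Cfsg.Agent.JFourType.Mat

open Cfsg
open Cfsg.Agent.CosetCert Cfsg.Agent.GFour25
open Cfsg.Agent.SporB.FischerU (Vec vecN enc vecN_enc enc_lt)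
open Cfsg.Agent.TTClass
open Cfsg.Agent.LargeFischer (IsSemi semiU twist)
open Cfsg.Agent.LargeFischer.Thompson
open Data FineData

/-- Elements of the image are semilinear. -/
theorem R22_semi {g : Equiv.Perm Vec} (hg : g ∈ R22) : ∃ b, IsSemi b g := by
  have h : R22 ≤ semiU := sup_le (fun x hx => ⟨false, K22_linear hx⟩)
    (Subgroup.zpowers_le.2 ⟨true, semi_facts.2.2.2.2.2⟩)
  exact h hg

theorem zero_mem_uSet : (0 : Vec) ∈ uSet := by
  show enc (0 : Vec) ∈ uList
  rw [enc_zero']
  decide +kernel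

theorem uSet_add {u v : Vec} (hu : u ∈ uSet) (hv : v ∈ uSet) : u + v ∈ uSet := by
  rw [← uSet_fix candJ_ok rep_gP.1] at hu hv ⊢
  intro a ha
  rcases ha with rfl | ⟨g, hg, hs⟩
  · rfl
  · rw [rep_add hs, hu a (Or.inr ⟨g, hg, hs⟩), hv a (Or.inr ⟨g, hg, hs⟩)]

theorem omP_cube (v : Vec) : omP (omP (omP v)) = v := by
  have h := Equiv.Perm.ext_iff.1 omP_pow_three v
  rwa [pow_succ, pow_two, Equiv.Perm.mul_apply, Equiv.Perm.mul_apply, Equiv.Perm.one_apply] at h

/-- An element of the image mapping the roots of the fixed space into it preserves it. -/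
theorem maps_uSet {g : Equiv.Perm Vec} (hg : g ∈ R22)
    (h : ∀ i k, g (wV i k) ∈ uSet) : ∀ u ∈ uSet, g u ∈ uSet := by
  obtain ⟨b, hb⟩ := R22_semi hg
  have hg0 : g 0 = 0 := by
    have := hb.1 0 0
    simpa using this
  have hlist : ∀ n ∈ (0 :: (six.flatMap fun i => thr.map fun k => wN i k)), g (vecN n) ∈ uSet := by
    intro n hn
    rcases List.mem_cons.1 hn with rfl | hn
    · rw [show vecN 0 = (0 : Vec) by decide, hg0]
      exact zero_mem_uSet
    · obtain ⟨i, hi, hn'⟩ := List.mem_flatMap.1 hn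
      obtain ⟨k, hk, rfl⟩ := List.mem_map.1 hn'
      have hi6 : i < 6 := by simp [six] at hi; omega
      have hk3 : k < 3 := by simp [thr] at hk; omega
      exact h ⟨i, hi6⟩ ⟨k, hk3⟩
  have hbv : ∀ i : Fin 6, g (bVec i) ∈ uSet := by
    intro i
    have h0 := sumOK_true
    simp only [sumOK] at h0
    have h1 := List.all_eq_true.1 h0 _ (mem_six i)
    obtain ⟨x, hx, h2⟩ := List.any_eq_true.1 h1
    obtain ⟨y, hy, h3⟩ := List.any_eq_true.1 h2
    have e : bVec i = vecN x + vecN y := by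
      rw [bVec, Nat.eq_of_beq_eq_true h3, vecN_xor]
    rw [e, hb.1]
    exact uSet_add (hlist x hx) (hlist y hy)
  exact fun u hu => uSet_span {v | g v ∈ uSet} (by show g 0 ∈ uSet; rw [hg0]; exact zero_mem_uSet)
    (fun x hx y hy => by show g (x + y) ∈ uSet; rw [hb.1]; exact uSet_add hx hy) hbv hu

/-- The roots of a line. -/
def lineV (w : Vec) : Set Vec := {x | x = w ∨ x = omP w ∨ x = omP (omP w)}

theorem mem_lineOf {w x : Vec} : enc x ∈ lineOf (enc w) ↔ x ∈ lineV w := by
  have h1 : apL omL (enc w) = enc (omP w) := (rep_omP w).symm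
  have h2 : apL omL (enc (omP w)) = enc (omP (omP w)) := (rep_omP (omP w)).symm
  simp only [lineOf, h1, h2, List.mem_cons, List.not_mem_nil, or_false]
  constructor
  · rintro (e | e | e)
    exacts [Or.inl (enc_injective e), Or.inr (Or.inl (enc_injective e)),
      Or.inr (Or.inr (enc_injective e))]
  · rintro (rfl | rfl | rfl) <;> simp

/-- A semilinear map fixing a vector preserves its line. -/
theorem line_apply {g : Equiv.Perm Vec} {b : Bool} (hb : IsSemi b g) {w : Vec} (hw : g w = w)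
    {x : Vec} (hx : x ∈ lineV w) : g x ∈ lineV w := by
  have h4 : twist false w4 = w4 ∧ twist true w4 = w4 * w4 ∧ twist true (w4 * w4) = w4 := by decide
  rcases hx with rfl | rfl | rfl
  · exact Or.inl hw
  · rw [omP_apply, hb.2.1, hw]
    cases b
    · exact Or.inr (Or.inl (by rw [h4.1, omP_apply]))
    · exact Or.inr (Or.inr (by rw [h4.2.1, omP_apply, omP_apply, smul_smul]))
  · rw [omP_apply, omP_apply, smul_smul, hb.2.1, hw]
    cases b
    · exact Or.inr (Or.inr (by rw [show twist false (w4 * w4) = w4 * w4 by decide, omP_apply,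
        omP_apply, smul_smul]))
    · exact Or.inr (Or.inl (by rw [h4.2.2, omP_apply]))

/-- An element of the image fixing a root of the fixed space preserves the fixed space. -/
theorem uSet_of_fix_root {g : Equiv.Perm Vec} (hg : g ∈ R22) {i : Fin 6} {k : Fin 3}
    (hw : g (wV i k) = wV i k) : ∀ u ∈ uSet, g u ∈ uSet := by
  obtain ⟨b, hb⟩ := R22_semi hg
  have h0 := List.all_eq_true.1 farOK_true _ (mem_six i)
  simp only [farOK, Bool.and_eq_true] at h0
  obtain ⟨hfar, ⟨⟨hline, hlineU⟩, hothers⟩⟩ := h0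
  set w0 := wV i 0 with hw0
  have hw0e : enc w0 = wN i 0 := ((line_facts i).2 0).2.1
  have hwk : ∀ l : Fin 3, wV i l ∈ lineV w0 := fun l => by
    have h1 := List.all_eq_true.1 hline _ (mem_thr l)
    rw [List.contains_iff_mem] at h1
    refine mem_lineOf.1 ?_
    rw [hw0e, ((line_facts i).2 l).2.1]
    exact h1
  have hlin : ∀ x ∈ lineV w0, g x ∈ lineV w0 := by
    have h3 := omP_cube w0
    have hl : lineV (wV i k) = lineV w0 := by
      rcases hwk k with e | e | e <;> rw [e] <;> ext x <;> simp only [lineV, Set.mem_setOf_eq, h3] <;>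
        tauto
    intro x hx
    rw [← hl] at hx ⊢
    exact line_apply hb hw hx
  have hlU : ∀ x ∈ lineV w0, x ∈ uSet := fun x hx => by
    have h1 := List.all_eq_true.1 hlineU (enc x) (hw0e ▸ mem_lineOf.2 hx)
    rw [Bool.and_eq_true, List.contains_iff_mem] at h1
    exact h1.1
  refine maps_uSet hg fun j l => ?_
  by_cases hij : i = j
  · subst hij
    exact hlU _ (hlin _ (hwk l))
  have h1 := List.all_eq_true.1 hothers _ (mem_six j)
  rw [beq_val, decide_eq_false hij, Bool.false_or] at h1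
  have h2 := List.all_eq_true.1 h1 _ (mem_thr l)
  rw [farB] at h2
  set r := wV j l with hr
  have hre : enc r = wN j l := ((line_facts j).2 l).2.1
  have hroot : IsRoot (g r) := by
    rw [root_apply hg, IsRoot, hre]
    exact ((line_facts j).2 l).2.2.2.1
  have hfarg : farB (wN i 0) (enc (g r)) = true := by
    rw [farB, List.all_eq_true]
    intro n hn
    obtain ⟨y, rfl⟩ : ∃ y : Vec, enc y = n := by
      rw [← hw0e] at hn
      simp only [lineOf, List.mem_cons, List.not_mem_nil, or_false] at hn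
      rcases hn with rfl | rfl | rfl
      exacts [⟨_, rfl⟩, ⟨omP w0, rep_omP w0⟩, ⟨omP (omP w0), by rw [rep_omP, rep_omP]⟩]
    rw [← hw0e] at hn
    have hy := mem_lineOf.1 hn
    obtain ⟨x, hx, rfl⟩ : ∃ x ∈ lineV w0, g x = y := by
      have hfin : (lineV w0).Finite := Set.toFinite _
      have himg : g '' lineV w0 = lineV w0 := Set.eq_of_subset_of_ncard_le
        (by rintro _ ⟨x, hx, rfl⟩; exact hlin x hx)
        (by rw [Set.ncard_image_of_injective _ g.injective]) hfin
      rw [← himg] at hy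
      exact hy
    have h3 := List.all_eq_true.1 h2 (enc x) (hw0e ▸ mem_lineOf.2 hx)
    rw [← hre, Bool.and_eq_true, Bool.not_eq_true', ← enc_add] at h3
    obtain ⟨h4, h5⟩ := h3
    rw [Bool.and_eq_true, Bool.not_eq_true', ← enc_add]
    refine ⟨?_, ?_⟩
    · rw [← hb.1]
      have := root_apply hg (x + r)
      unfold IsRoot at this
      rw [h4] at this
      simpa using this
    · rw [comB_iff] at h5 ⊢
      unfold Com at h5 ⊢
      rw [← hb.1, hb.2.2, hb.2.2]
      exact h5
  have h5 := allB_spec_zero hfar (by norm_num : 4096 ≤ 2 ^ 12) (enc_lt (g r))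
  rw [IsRoot] at hroot
  rw [hroot, hfarg, Bool.not_true, Bool.false_or, Bool.false_or, List.contains_iff_mem] at h5
  exact h5

/-- An element of the image commuting with an involution of the sixteen preserves the fixed space. -/
theorem uSet_of_comm {g : Equiv.Perm Vec} (hg : g ∈ R22) {a : Equiv.Perm Vec} (ha : a ∈ aGrp)
    (h1 : a ≠ 1) (hc : g * a = a * g) : ∀ u ∈ uSet, g u ∈ uSet := by
  classical
  obtain ⟨b, hb⟩ := R22_semi hg
  obtain ⟨k, hk, rfl⟩ := aP_surj ha h1
  have h0 := List.all_eq_true.1 countOK_true _ (mem_fifteen hk)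
  simp only [countOK, Bool.and_eq_true] at h0
  obtain ⟨hout, hin⟩ := h0
  obtain ⟨-, hnd, hlt, hmv⟩ := moved_eq hk
  have hcount : ∀ r : Vec, rootCount k (enc r) = {m | m ∈ moved (aP k) ∧ IsRoot (r + m)}.ncard := by
    intro r
    have e : {m | m ∈ moved (aP k) ∧ IsRoot (r + m)} =
        vecN '' ↑((mvL k).filter fun m => rootR (enc r ^^^ m)).toFinset := by
      ext m
      simp only [Set.mem_setOf_eq, Set.mem_image, List.coe_toFinset, List.mem_filter, hmv, IsRoot]
      constructor
      · rintro ⟨hm, hr⟩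
        exact ⟨enc m, ⟨hm, by rwa [← enc_add]⟩, vecN_enc m⟩
      · rintro ⟨n, ⟨hn, hr⟩, rfl⟩
        rw [enc_add, enc_vecN (hlt n hn)]
        exact ⟨hn, hr⟩
    rw [e, Set.InjOn.ncard_image, Set.ncard_coe_finset,
      List.toFinset_card_of_nodup (hnd.filter _)]
    · rfl
    · intro x hx y hy q
      simp only [List.coe_toFinset, Set.mem_setOf_eq, List.mem_filter] at hx hy
      have := congrArg enc q
      rwa [enc_vecN (hlt x hx.1), enc_vecN (hlt y hy.1)] at this
  refine maps_uSet hg fun j l => ?_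
  set r := wV j l with hr
  have hre : enc r = wN j l := ((line_facts j).2 l).2.1
  have hrU : r ∈ uSet := by show enc r ∈ uList; rw [hre]; exact ((line_facts j).2 l).2.2.1
  have hfix : aP k (g r) = g r := by
    rw [← Equiv.Perm.mul_apply, ← hc, Equiv.Perm.mul_apply,
      (uSet_fix candJ_ok rep_gP.1 r).2 hrU _ (aP_spec hk).1]
  have himg : g '' {m | m ∈ moved (aP k) ∧ IsRoot (r + m)} =
      {m | m ∈ moved (aP k) ∧ IsRoot (g r + m)} := by
    ext m
    constructor
    · rintro ⟨n, ⟨⟨v, rfl⟩, hn⟩, rfl⟩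
      refine ⟨⟨g v, ?_⟩, ?_⟩
      · show aP k (g v) + g v = g (aP k v + v)
        rw [hb.1, ← Equiv.Perm.mul_apply, ← hc, Equiv.Perm.mul_apply]
      · rw [← hb.1, root_apply hg]
        exact hn
    · rintro ⟨⟨v, rfl⟩, hn⟩
      obtain ⟨u, rfl⟩ := g.surjective v
      refine ⟨aP k u + u, ⟨⟨u, rfl⟩, ?_⟩, ?_⟩
      · rw [← root_apply hg, hb.1, hb.1, ← Equiv.Perm.mul_apply g, hc, Equiv.Perm.mul_apply]
        exact hn
      · show g (aP k u + u) = aP k (g u) + g u
        rw [hb.1, ← Equiv.Perm.mul_apply, hc, Equiv.Perm.mul_apply]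
  have hle : rootCount k (enc (g r)) ≤ 6 := by
    rw [hcount, ← himg, Set.ncard_image_of_injective _ g.injective, ← hcount, hre]
    exact Nat.le_of_ble_eq_true (List.all_eq_true.1 (List.all_eq_true.1 hin _ (mem_six j)) _ (mem_thr l))
  have h5 := allB_spec_zero hout (by norm_num : 4096 ≤ 2 ^ 12) (enc_lt (g r))
  have hroot : rootR (enc (g r)) = true := by
    have h6 : IsRoot r := by rw [IsRoot, hre]; exact ((line_facts j).2 l).2.2.2.1
    exact (root_apply hg r).2 h6
  rw [hroot, Bool.not_true, Bool.false_or] at h5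
  have hfe : Nat.beq (apL (aL k) (enc (g r))) (enc (g r)) = true := by
    rw [← (aP_spec hk).2.2 (g r), hfix]
    exact Nat.beq_refl _
  rw [hfe, Bool.not_true, Bool.false_or, Nat.ble_eq_true_of_le hle, Bool.not_true, Bool.false_or,
    List.contains_iff_mem] at h5
  exact h5

variable {G : Type*} [Group G] [Finite G] {z : G}
  {Q : Subgroup (Subgroup.centralizer ({z} : Set G))} [Q.Normal]

namespace Setup

variable (S : Setup z Q)

/-- An element whose image preserves the fixed space normalises `2^11`. -/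
theorem mem_Nm_of_maps {g : ↥(Subgroup.centralizer ({z} : Set G))}
    (hU : ∀ u ∈ S.M.U, S.rho g u ∈ S.M.U) : (g : G) ∈ S.Nm := by
  have himg : S.rho g '' S.M.U = S.M.U := Set.eq_of_subset_of_ncard_le
    (by rintro _ ⟨u, hu, rfl⟩; exact hU u hu)
    (by rw [Set.ncard_image_of_injective _ (S.rho g).injective]) (Set.toFinite _)
  refine S.coe_mem_Nm fun x hx => S.centralizer_P0 fun p hp => ?_
  obtain ⟨hpQ, hpU⟩ := S.mem_P0.1 hp
  rw [← himg] at hpU
  obtain ⟨u, hu, hue⟩ := hpU
  have hp' : g⁻¹ * p * g ∈ S.P0 := by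
    refine S.mem_P0.2 ⟨by simpa using (inferInstance : Q.Normal).conj_mem _ hpQ g⁻¹, ?_⟩
    have h := S.vec_conj g⁻¹ hpQ
    rw [inv_inv, map_inv, ← hue, show (S.rho g)⁻¹ (S.rho g u) = u from Equiv.symm_apply_apply _ u] at h
    rw [h]
    exact hu
  have e := ((S.D.mem_K S.M).1 hx).1 _ hp'
  calc p * (g * x * g⁻¹) = g * (g⁻¹ * p * g * x) * g⁻¹ := by group
    _ = g * x * g⁻¹ * p := by rw [e]; group

/-- An element of the involution centraliser commuting with a member of `PG` normalises `2^11`. -/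
theorem mem_Nm_of_commute {t : G} (ht : t ∈ S.PG) {g : G}
    (hgz : g ∈ Subgroup.centralizer ({z} : Set G)) (hgt : g ∈ Subgroup.centralizer ({t} : Set G)) :
    g ∈ S.Nm := by
  obtain ⟨x, hx, rfl⟩ := S.exists_of_PG ht
  set h : ↥(Subgroup.centralizer ({z} : Set G)) := ⟨g, hgz⟩ with hh
  have hxh : h * x * h⁻¹ = x := Subtype.ext (by
    show g * (x : G) * g⁻¹ = (x : G)
    rw [Subgroup.mem_centralizer_singleton_iff.1 hgt, mul_inv_cancel_right])
  have hrg : S.rho h ∈ R22 := S.range ▸ ⟨h, rfl⟩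
  refine S.mem_Nm_of_maps (g := h) ?_
  rw [S.M_U]
  by_cases h1 : S.rho x = 1
  · have hxQ : x ∈ Q := S.D.mem_q h1
    have hxP : x ∈ S.P0 := (S.D.K_inf S.M).le ⟨hx.1, hxQ⟩
    have hroot : IsRoot (S.vec x) := by
      have hm : x ∈ S.pset ∩ (S.P0 : Set ↥(Subgroup.centralizer ({z} : Set G))) := ⟨hx, hxP⟩
      rw [S.pset_P0] at hm
      exact hm.2
    have hxU : S.vec x ∈ uSet := S.M_U ▸ (S.mem_P0.1 hxP).2
    obtain ⟨i, k, hik⟩ := root_surj hxU hroot
    refine uSet_of_fix_root hrg (i := i) (k := k) ?_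
    rw [hik, ← S.vec_conj h hxQ, hxh]
  · refine uSet_of_comm hrg (S.M_A ▸ S.rho_mem hx.1) h1 ?_
    have := congrArg S.rho hxh
    rw [map_mul, map_mul, map_inv, mul_inv_eq_iff_eq_mul] at this
    exact this

/-- Both centralisers meet inside the normaliser, for every conjugate of `z` in `2^11`. -/
theorem centralizer_inf_le {t s : G} (ht : t ∈ S.PG) (hs : s ∈ S.KG) (hsz : IsConj z s) :
    Subgroup.centralizer ({t} : Set G) ⊓ Subgroup.centralizer ({s} : Set G) ≤ S.Nm := by
  obtain ⟨c, hc⟩ := isConj_iff.1 hsz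
  obtain ⟨m, hm, hme⟩ := S.fusion S.z_mem_KG (g := c) (hc.symm ▸ hs)
  rintro g ⟨hgt, hgs⟩
  have hs' : s = m * z * m⁻¹ := by rw [hme, hc]
  have key : m⁻¹ * g * m ∈ S.Nm := by
    refine S.mem_Nm_of_commute (t := m⁻¹ * t * (m⁻¹)⁻¹) (S.conj_mem_PG (inv_mem hm) ht) ?_ ?_
    · rw [Subgroup.mem_centralizer_singleton_iff]
      have h := Subgroup.mem_centralizer_singleton_iff.1 hgs
      rw [hs'] at h
      calc m⁻¹ * g * m * z = m⁻¹ * (g * (m * z * m⁻¹)) * m := by group
        _ = m⁻¹ * (m * z * m⁻¹ * g) * m := by rw [h]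
        _ = z * (m⁻¹ * g * m) := by group
    · rw [Subgroup.mem_centralizer_singleton_iff]
      have h := Subgroup.mem_centralizer_singleton_iff.1 hgt
      calc m⁻¹ * g * m * (m⁻¹ * t * (m⁻¹)⁻¹) = m⁻¹ * (g * t) * m := by group
        _ = m⁻¹ * (t * g) * m := by rw [h]
        _ = m⁻¹ * t * (m⁻¹)⁻¹ * (m⁻¹ * g * m) := by group
  have h2 := mul_mem (mul_mem hm key) (inv_mem hm)
  rwa [show m * (m⁻¹ * g * m) * m⁻¹ = g by group] at h2

/-- The intersection of the centralisers of the two kinds of involutions is local. -/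
theorem local_centralizer {a t : G} (ha : a ∈ S.KG) (hac : IsConj z a) (ht : t ∈ S.PG) :
    Subgroup.centralizer ({a} : Set G) ⊓ Subgroup.centralizer ({t} : Set G) ≤ S.Nm :=
  (inf_comm _ _).le.trans (S.centralizer_inf_le ht ha hac)

end Setup

end Cfsg.Agent.JFourType.Mat
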