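import Cfsg.Agent.JFourType.Mat.Main
import Cfsg.Agent.JFourType.Mat.CentLocal
import Cfsg.Agent.JFourType.TCentral

/-!
The centralizer of an element of the subgroup of order `2^11` not conjugate to the central involution
normalises that subgroup.
-/

set_option autoImplicit false

namespace Cfsg.Agent.JFourType.Mat

open Cfsg
open Cfsg.Agent.GFour25
open Cfsg.Agent.SporB.FischerU (Vec)
open Cfsg.Agent.TTClass
open Cfsg.Agent.LargeFischer Cfsg.Agent.LargeFischer.Thompson
open scoped Pointwise

variable {G : Type*} [Group G] [Finite G] {z : G}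
  {Q : Subgroup (Subgroup.centralizer ({z} : Set G))} [Q.Normal]

namespace Setup

variable (S : Setup z Q)

/-- The marked elements as a configuration. -/
noncomputable def config : @MatCode.Config ↥S.KG (TCent.elGroup S.KG_elem) :=
  letI := TCent.elGroup S.KG_elem
  { f := S.mark
    sq := fun v => Subtype.ext (by
      show (v : G) * v = 1
      rw [← pow_two]
      exact S.KG_elem.2 _ v.2)
    zero := Subtype.ext (by
      show ((S.el (pts 0) (pts 0) : ↥(Subgroup.centralizer ({z} : Set G))) : G) = 1
      rw [S.el_self]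
      rfl)
    small := fun T hT he h6 e => S.pts_prod_small T.toList T.nodup_toList
      (by simpa using hT.ne_empty) (by simpa using he) (by simpa using h6)
      (by rw [Finset.prod_map_toList]; exact e)
    gen := S.mark_gen
    card := S.KG_card }

theorem config_pairs (v : ↥S.KG) :
    v ∈ @MatCode.Config.pairs ↥S.KG (TCent.elGroup S.KG_elem) S.config ↔
      (v : G) ≠ 1 ∧ ¬ IsConj z (v : G) := by
  constructor
  · rintro ⟨a, b, hab, rfl⟩
    have h : ((S.mark a * S.mark b : ↥S.KG) : G) ∈ S.PG := by
      rw [S.mark_mul]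
      exact S.mem_PG.2 (S.el_pset (pts.injective.ne hab))
    exact h.2
  · intro hv
    obtain ⟨y, hy, e⟩ := S.exists_of_PG ⟨v.2, hv⟩
    obtain ⟨p, q, hpq, rfl⟩ := S.el_surj hy
    refine ⟨pts.symm p, pts.symm q, pts.symm.injective.ne hpq, Subtype.ext ?_⟩
    show ((S.mark (pts.symm p) * S.mark (pts.symm q) : ↥S.KG) : G) = _
    rw [S.mark_mul, Equiv.apply_symm_apply, Equiv.apply_symm_apply]
    exact e

/-- The data used by the fusion argument. -/
noncomputable def hyp : TCent.Hyp z S.KG where
  el := S.KG_elem
  D := S.config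
  pairs := S.config_pairs
  cent := S.centralizer_KG.le
  uniq := fun B hB hel hc => by
    haveI : Fact (Nat.Prime 2) := ⟨Nat.prime_two⟩
    exact (S.unique_in ((IsPGroup.of_card hc).to_sup_of_normal_right' (IsPGroup.of_card S.KG_card) hB)
      le_sup_right le_sup_left hel).2 hc
  loc := fun _ ha haz _ ht ht1 htz => S.local_centralizer ha haz ⟨ht, ht1, htz⟩

include S in
/-- **The centralizer of an element not conjugate to `z` normalises the subgroup.** -/
theorem centralizer_le {t : G} (ht : t ∈ S.PG) : Subgroup.centralizer ({t} : Set G) ≤ S.Nm :=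
  S.hyp.centralizer_le ht.1 ht.2.1 ht.2.2

end Setup

end Cfsg.Agent.JFourType.Mat
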