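import Cfsg.Prelude.Def_Transfer
import Mathlib.GroupTheory.PGroup

/-!
Elementary abelian 2-subgroups and injective homomorphisms.
-/

set_option autoImplicit false

namespace Cfsg.Agent.JFourType.Mat

open Cfsg

theorem isPGroup_of_elementary {H : Type*} [Group H] {E : Subgroup H}
    (h : IsElementaryAbelian 2 E) : IsPGroup 2 ↥E :=
  fun g => ⟨1, Subtype.ext (by simpa using h.2 g g.2)⟩

theorem elementary_map {H K : Type*} [Group H] [Group K] (f : H →* K) {E : Subgroup H}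
    (h : IsElementaryAbelian 2 E) : IsElementaryAbelian 2 (E.map f) := by
  refine ⟨⟨⟨?_⟩⟩, ?_⟩
  · rintro ⟨_, x, hx, rfl⟩ ⟨_, y, hy, rfl⟩
    refine Subtype.ext ?_
    show f x * f y = f y * f x
    rw [← map_mul, ← map_mul]
    exact congrArg f (congrArg Subtype.val (h.1.is_comm.comm ⟨x, hx⟩ ⟨y, hy⟩))
  · rintro _ ⟨x, hx, rfl⟩
    rw [← map_pow, h.2 x hx, map_one]

theorem elementary_of_map {H K : Type*} [Group H] [Group K] (f : H →* K) (hf : Function.Injective f)
    {E : Subgroup H} (h : IsElementaryAbelian 2 (E.map f)) : IsElementaryAbelian 2 E := by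
  refine ⟨⟨⟨fun x y => Subtype.ext (hf ?_)⟩⟩, fun x hx => hf ?_⟩
  · show f (x * y : H) = f (y * x : H)
    rw [map_mul, map_mul]
    exact congrArg Subtype.val (h.1.is_comm.comm ⟨f x, x, x.2, rfl⟩ ⟨f y, y, y.2, rfl⟩)
  · rw [map_pow, map_one]
    exact h.2 _ ⟨x, hx, rfl⟩

end Cfsg.Agent.JFourType.Mat
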