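import Cfsg.Agent.JFourType.Mat.FineCert

/-!
The configuration of root lines and involutions in the model of the elementary abelian group of
order sixteen of the semilinear group.
-/

set_option autoImplicit false
set_option maxRecDepth 100000

namespace Cfsg.Agent.JFourType.Mat

open Cfsg.Agent.CosetCert Cfsg.Agent.GFour25
open Cfsg.Agent.SporB.FischerU (Vec vecN enc vecN_enc enc_lt)
open Cfsg.Agent.LargeFischer.Thompson
open Cfsg.Agent.TTClass
open Data FineData

/-- The two vectors commute in the extension. -/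
def Com (v w : Vec) : Prop := UnitF4.H (v + w) (v + w) = UnitF4.H v v

/-- The vectors moved by a permutation, as differences. -/
def moved (x : Equiv.Perm Vec) : Set Vec := Set.range fun v => x v + v

/-- The configuration in a model. -/
structure Fine {R : Subgroup (Equiv.Perm Vec)} (M : Model R) where
  /-- the involution of a pair of lines -/
  a : Fin 6 → Fin 6 → Equiv.Perm Vec
  /-- the roots in the fixed space -/
  w : Fin 6 → Fin 3 → Vec
  a_mem : ∀ i j, i ≠ j → a i j ∈ M.A ∧ a i j ≠ 1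
  a_surj : ∀ x ∈ M.A, x ≠ 1 → ∃ i j, i ≠ j ∧ a i j = x
  a_eq : ∀ i j k l, i ≠ j → k ≠ l → (a i j = a k l ↔ (i = k ∧ j = l) ∨ (i = l ∧ j = k))
  a_mul : ∀ i j k, i ≠ j → j ≠ k → i ≠ k → a i j * a j k = a i k
  moved_card : ∀ x ∈ M.A, x ≠ 1 → (moved x).ncard = 16
  w_mem : ∀ i k, w i k ∈ M.U
  w_root : ∀ i k, IsRoot (w i k)
  w_surj : ∀ u ∈ M.U, IsRoot u → ∃ i k, w i k = u
  w_inj : ∀ i k j l, w i k = w j l → i = j ∧ k = l
  w_sum : ∀ i, w i 0 + w i 1 = w i 2
  w_cross : ∀ i j k l, i ≠ j → ¬ IsRoot (w i k + w j l)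
  w_moved : ∀ i j m k, i ≠ j → (w m k ∈ moved (a i j) ↔ m = i ∨ m = j)
  star : ∀ i j k, i ≠ j → ∃ v, a i j v + v = w i k ∧ (∀ l, Com v (w i l) ↔ l = k) ∧ ∀ l, Com v (w j l)
  inj : ∀ i j v, i ≠ j → (∀ l, Com v (w i l) ∧ Com v (w j l)) → a i j v = v
  shift : ∀ i j k l, i ≠ j → j ≠ k → i ≠ k → ∃ v, a i k v = v ∧ a i j v + v = w j l
  meet_le : ∀ x ∈ M.A, x ≠ 1 → ∀ y ∈ M.A, y ≠ 1 → x ≠ y → (moved y ∩ moved (x * y)).ncard ≤ 4
  meet_ge : ∀ x ∈ M.A, x ≠ 1 → ∀ y ∈ M.A, y ≠ 1 → x ≠ y →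
    4 ≤ ((fun v => y v + v) '' {v | x v = v}).ncard
  sym : ∀ i j k l i' j' k' l' : Fin 6, [i, j, k, l].Nodup → [i', j', k', l'].Nodup →
    ∃ n ∈ R, (∀ u ∈ M.U, n u ∈ M.U) ∧ (∀ x ∈ M.A, n * x * n⁻¹ ∈ M.A) ∧
      n * a i j * n⁻¹ = a i' j' ∧ n * a j k * n⁻¹ = a j' k' ∧ n * a k l * n⁻¹ = a k' l'

/-! ### Soundness of the checks -/

theorem comB_iff (v w : Vec) : comB (enc v) (enc w) = true ↔ Com v w := by
  have hq : ∀ x : Vec, (qB (enc x) = false) ↔ UnitF4.H x x = 0 := fun x => by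
    have h := allB_spec_zero qB_ok (by norm_num : 4096 ≤ 2 ^ 12) (enc_lt x)
    rw [beq_iff_eq] at h
    rw [← qN_enc x, h]
    cases qB (enc x) <;> simp
  rw [comB, ← Cfsg.Agent.LargeFischer.Thompson.enc_add, beq_iff_eq, Com]
  rcases UnitF4.h_self GFour25.card_F4 (v + w) with h1 | h1 <;>
    rcases UnitF4.h_self GFour25.card_F4 v with h2 | h2 <;>
    have a := hq (v + w) <;> have b := hq v <;> rw [h1] at a ⊢ <;> rw [h2] at b ⊢ <;>
    revert a b <;> cases qB (enc (v + w)) <;> cases qB (enc v) <;> simp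

theorem mem_six (i : Fin 6) : i.val ∈ six := by revert i; decide

theorem mem_thr (i : Fin 3) : i.val ∈ thr := by revert i; decide

theorem mem_fifteen {n : ℕ} (h : n < 15) : n ∈ fifteen := List.mem_range.2 h

theorem beq_val {m : ℕ} (i j : Fin m) : Nat.beq i.val j.val = decide (i = j) := by
  by_cases h : i = j
  · subst h; simp
  · rw [decide_eq_false h]
    exact Bool.eq_false_iff.2 fun e => h (Fin.ext (Nat.eq_of_beq_eq_true e))

/-- The permutation of an index. -/
noncomputable def aP (k : ℕ) : Equiv.Perm Vec :=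
  if h : k < 15 then
    (aGrp_rep candJ_ok rep_gP.1 (getD_mem [] (aList_facts.1.symm ▸ h : k < aList.length))).choose
  else 1

theorem aP_spec {k : ℕ} (h : k < 15) : aP k ∈ aGrp ∧ aP k ≠ 1 ∧ Rep (aL k) (aP k) := by
  have hl : k < aList.length := aList_facts.1.symm ▸ h
  have e : aL k = aList.getD k [] := by
    rw [aL, List.getD_eq_getElem?_getD, List.getD_eq_getElem?_getD, List.getElem?_eq_getElem hl]
    rfl
  rw [e, aP, dif_pos h]
  exact (aGrp_rep candJ_ok rep_gP.1 (getD_mem [] hl)).choose_spec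

theorem aP_surj {x : Equiv.Perm Vec} (hx : x ∈ aGrp) (h1 : x ≠ 1) : ∃ k < 15, aP k = x := by
  obtain ⟨g, hg, hr⟩ := hx.resolve_left h1
  obtain ⟨k, hk, rfl⟩ := exists_getD [] hg
  rw [aList_facts.1] at hk
  refine ⟨k, hk, ?_⟩
  have hr2 := (aP_spec hk).2.2
  rw [aL, List.getD_eq_getElem?_getD, List.getElem?_eq_getElem (aList_facts.1.symm ▸ hk)] at hr2
  rw [List.getD_eq_getElem?_getD, List.getElem?_eq_getElem (aList_facts.1.symm ▸ hk)] at hr
  exact hr2.eq hr

theorem aP_inj {k l : ℕ} (hk : k < 15) (hl : l < 15) (h : aP k = aP l) : k = l := by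
  obtain ⟨hlen, hnd, hf⟩ := aList_facts
  have hk' : k < aList.length := hlen.symm ▸ hk
  have hl' : l < aList.length := hlen.symm ▸ hl
  have e : ∀ m < aList.length, aL m = aList.getD m [] := fun m hm => by
    rw [aL, List.getD_eq_getElem?_getD, List.getD_eq_getElem?_getD, List.getElem?_eq_getElem hm]
    rfl
  have h1 := (aP_spec hk).2.2
  have h2 := (aP_spec hl).2.2
  rw [h] at h1
  rw [e k hk'] at h1
  rw [e l hl'] at h2
  have h3 := h1.list_eq h2 (hf _ (getD_mem [] hk')).1 (hf _ (getD_mem [] hl')).1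
  rw [List.getD_eq_getElem?_getD, List.getD_eq_getElem?_getD, List.getElem?_eq_getElem hk',
    List.getElem?_eq_getElem hl'] at h3
  exact (hnd.getElem_inj_iff).1 h3

theorem pi2_lt {i j : Fin 6} (h : i ≠ j) : pi2 i j < 15 := by
  have h0 := pairOK_true
  rw [pairOK, Bool.and_eq_true] at h0
  have h1 := List.all_eq_true.1 (List.all_eq_true.1 h0.1 _ (mem_six i)) _ (mem_six j)
  rw [beq_val, decide_eq_false h, Bool.false_or, Bool.and_eq_true] at h1
  exact Nat.blt_eq.mp h1.1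

theorem pi2_eq {i j k l : Fin 6} (h : i ≠ j) (h' : k ≠ l) :
    pi2 i j = pi2 k l ↔ (i = k ∧ j = l) ∨ (i = l ∧ j = k) := by
  have h0 := pairOK_true
  rw [pairOK, Bool.and_eq_true] at h0
  have h1 := List.all_eq_true.1 (List.all_eq_true.1 h0.1 _ (mem_six i)) _ (mem_six j)
  rw [beq_val, decide_eq_false h, Bool.false_or, Bool.and_eq_true] at h1
  have h2 := List.all_eq_true.1 (List.all_eq_true.1 h1.2 _ (mem_six k)) _ (mem_six l)
  rw [beq_val, decide_eq_false h', Bool.false_or, beq_iff_eq, beq_val, beq_val, beq_val,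
    beq_val] at h2
  rw [← decide_eq_decide.trans Iff.rfl, Bool.decide_or, Bool.decide_and, Bool.decide_and, ← h2]
  by_cases e : pi2 i j = pi2 k l
  · simp [e]
  · rw [decide_eq_false e]
    exact (Bool.eq_false_iff.2 fun q => e (Nat.eq_of_beq_eq_true q)).symm

theorem exists_pi2 {n : ℕ} (h : n < 15) : ∃ i j : Fin 6, i ≠ j ∧ pi2 i j = n := by
  have h0 := pairOK_true
  rw [pairOK, Bool.and_eq_true] at h0
  have h1 := List.all_eq_true.1 h0.2 n (mem_fifteen h)
  obtain ⟨i, hi, h2⟩ := List.any_eq_true.1 h1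
  obtain ⟨j, hj, h3⟩ := List.any_eq_true.1 h2
  have hlt : ∀ x ∈ six, x < 6 := by decide
  rw [Bool.and_eq_true, Bool.not_eq_true'] at h3
  refine ⟨⟨i, hlt i hi⟩, ⟨j, hlt j hj⟩, fun e => ?_, Nat.eq_of_beq_eq_true h3.2⟩
  rw [show i = j from congrArg Fin.val e] at h3
  simp at h3

theorem mul_fact {i j k : Fin 6} (hij : i ≠ j) (hjk : j ≠ k) (hik : i ≠ k) :
    aP (pi2 i j) * aP (pi2 j k) = aP (pi2 i k) := by
  have h := List.all_eq_true.1 (List.all_eq_true.1 (List.all_eq_true.1 mulOK_true _ (mem_six i)) _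
    (mem_six j)) _ (mem_six k)
  rw [beq_val, beq_val, beq_val, decide_eq_false hij, decide_eq_false hjk, decide_eq_false hik,
    Bool.false_or, Bool.false_or, Bool.false_or, beq_iff_eq] at h
  exact ((aP_spec (pi2_lt hij)).2.2.mul (aP_spec (pi2_lt hjk)).2.2).eq
    (h ▸ (aP_spec (pi2_lt hik)).2.2)

/-- The vector of a root. -/
noncomputable def wV (i : Fin 6) (k : Fin 3) : Vec := vecN (wN i k)

theorem line_facts (i : Fin 6) : wV i 0 + wV i 1 = wV i 2 ∧
    ∀ k : Fin 3, wN i k < 4096 ∧ enc (wV i k) = wN i k ∧ wN i k ∈ uList ∧ rootR (wN i k) = true ∧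
      ∀ (j : Fin 6) (l : Fin 3), (wN i k = wN j l → i = j ∧ k = l) ∧
        (i ≠ j → rootR (wN i k ^^^ wN j l) = false) := by
  have h0 := lineOK_true
  rw [lineOK, Bool.and_eq_true] at h0
  have h1 := List.all_eq_true.1 h0.1 _ (mem_six i)
  rw [Bool.and_eq_true] at h1
  refine ⟨?_, fun k => ?_⟩
  · rw [wV, wV, wV, ← Cfsg.Agent.LargeFischer.Thompson.vecN_xor]
    exact congrArg vecN (Nat.eq_of_beq_eq_true h1.1)
  have h2 := List.all_eq_true.1 h1.2 _ (mem_thr k)
  simp only [Bool.and_eq_true, List.contains_iff_mem] at h2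
  have hlt : wN i k < 4096 := Nat.blt_eq.mp h2.1.1.1
  refine ⟨hlt, Cfsg.Agent.LargeFischer.Thompson.enc_vecN hlt, h2.1.1.2, h2.1.2, fun j l => ?_⟩
  have h3 := List.all_eq_true.1 (List.all_eq_true.1 h2.2 _ (mem_six j)) _ (mem_thr l)
  rw [beq_val] at h3
  by_cases e : i = j
  · subst e
    rw [decide_eq_true rfl, if_pos rfl, beq_val, Bool.or_eq_true, decide_eq_true_iff] at h3
    refine ⟨fun q => ⟨rfl, ?_⟩, fun q => absurd rfl q⟩
    rcases h3 with h3 | h3
    · exact h3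
    · rw [q] at h3; simp at h3
  · rw [decide_eq_false e, if_neg Bool.false_ne_true, Bool.and_eq_true, Bool.not_eq_true',
      Bool.not_eq_true'] at h3
    refine ⟨fun q => ?_, fun _ => h3.2⟩
    rw [q] at h3
    simp at h3

theorem root_surj {u : Vec} (hu : u ∈ uSet) (hr : IsRoot u) : ∃ i k, wV i k = u := by
  have h0 := lineOK_true
  rw [lineOK, Bool.and_eq_true] at h0
  have h1 := List.all_eq_true.1 h0.2 _ hu
  rw [IsRoot] at hr
  rw [hr, Bool.not_true, Bool.false_or] at h1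
  obtain ⟨i, hi, h2⟩ := List.any_eq_true.1 h1
  obtain ⟨k, hk, h3⟩ := List.any_eq_true.1 h2
  have hlt : ∀ x ∈ six, x < 6 := by decide
  have hlt' : ∀ x ∈ thr, x < 3 := by decide
  refine ⟨⟨i, hlt i hi⟩, ⟨k, hlt' k hk⟩, ?_⟩
  show vecN (wN i k) = u
  rw [Nat.eq_of_beq_eq_true h3, vecN_enc]

theorem enc_move {k : ℕ} (hk : k < 15) (v : Vec) : enc (aP k v + v) = mvN k (enc v) := by
  rw [Cfsg.Agent.LargeFischer.Thompson.enc_add, (aP_spec hk).2.2 v, mvN]

theorem apL_closed {P : ℕ → Prop} (h0 : P 0) (hadd : ∀ a b, P a → P b → P (a ^^^ b)) :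
    ∀ l : List ℕ, (∀ e ∈ l, P e) → ∀ x, P (apL l x) := by
  intro l
  induction l with
  | nil => intro _ x; rw [apL_nil]; exact h0
  | cons a l ih =>
    intro h x
    rw [apL_cons]
    refine hadd _ _ ?_ (ih (fun e he => h e (List.mem_cons_of_mem _ he)) _)
    cases x.testBit 0
    · exact h0
    · exact h a List.mem_cons_self

theorem moved_eq {k : ℕ} (hk : k < 15) :
    (mvL k).length = 16 ∧ (mvL k).Nodup ∧ (∀ r ∈ mvL k, r < 4096) ∧
      moved (aP k) = {v | enc v ∈ mvL k} := by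
  have h := List.all_eq_true.1 moveOK_true k (mem_fifteen hk)
  simp only [Bool.and_eq_true] at h
  obtain ⟨⟨⟨⟨⟨hlen, hnd⟩, h0⟩, hbas⟩, hcl⟩, hwit⟩ := h
  rw [List.contains_iff_mem] at h0
  have hlen' := Nat.eq_of_beq_eq_true hlen
  have hxor : ∀ a b, mvN k (a ^^^ b) = mvN k a ^^^ mvN k b := fun a b => by
    rw [mvN, mvN, mvN, apL_xor]
    ac_rfl
  have hin : ∀ r ∈ mvL k, ∃ v : Vec, enc (aP k v + v) = r := by
    intro r hr
    obtain ⟨t, ht, rfl⟩ := exists_getD 0 hr
    have h1 := List.all_eq_true.1 hwit t (List.mem_range.2 (hlen' ▸ ht))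
    rw [Bool.and_eq_true] at h1
    have hv : (mvWit.getD k []).getD t 4096 < 4096 := Nat.blt_eq.mp h1.1
    refine ⟨vecN ((mvWit.getD k []).getD t 0), ?_⟩
    have hd : (mvWit.getD k []).getD t 0 = (mvWit.getD k []).getD t 4096 := by
      rcases lt_or_ge t (mvWit.getD k []).length with q | q
      · rw [List.getD_eq_getElem _ _ q, List.getD_eq_getElem _ _ q]
      · rw [List.getD_eq_default _ _ q] at hv
        omega
    rw [enc_move hk, Cfsg.Agent.LargeFischer.Thompson.enc_vecN (hd ▸ hv)]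
    exact Nat.eq_of_beq_eq_true h1.2
  refine ⟨hlen', nodupB_spec hnd, fun r hr => ?_, Set.Subset.antisymm ?_ ?_⟩
  · obtain ⟨v, rfl⟩ := hin r hr
    exact enc_lt _
  · rintro _ ⟨v, rfl⟩
    show enc (aP k v + v) ∈ mvL k
    rw [enc_move hk, ← apL_idL (enc_lt v)]
    refine apL_closed (P := fun x => mvN k x ∈ mvL k) ?_ (fun a b ha hb => ?_) idL ?_ _
    · simpa [mvN, apL_zero] using h0
    · have := List.all_eq_true.1 (List.all_eq_true.1 hcl _ ha) _ hb
      rw [List.contains_iff_mem] at this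
      rw [hxor]
      exact this
    · intro e he
      have := List.all_eq_true.1 hbas e he
      rwa [List.contains_iff_mem] at this
  · intro v hv
    obtain ⟨u, hu⟩ := hin _ hv
    exact ⟨u, Cfsg.Agent.LargeFischer.Thompson.enc_injective hu⟩

theorem ncard_moved {k : ℕ} (hk : k < 15) : (moved (aP k)).ncard = 16 := by
  classical
  obtain ⟨hlen, hnd, hlt, he⟩ := moved_eq hk
  have e : moved (aP k) = ↑((mvL k).toFinset.image vecN) := by
    rw [he]
    ext v
    rw [Finset.coe_image]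
    constructor
    · intro hv; exact ⟨enc v, List.mem_toFinset.2 hv, vecN_enc v⟩
    · rintro ⟨u, hu, rfl⟩
      have hu' := List.mem_toFinset.1 hu
      show enc (vecN u) ∈ mvL k
      rwa [Cfsg.Agent.LargeFischer.Thompson.enc_vecN (hlt u hu')]
  rw [e, Set.ncard_coe_finset, Finset.card_image_of_injOn, List.toFinset_card_of_nodup hnd, hlen]
  intro a ha b hb q
  have := congrArg enc q
  rwa [Cfsg.Agent.LargeFischer.Thompson.enc_vecN (hlt a (List.mem_toFinset.1 ha)),
    Cfsg.Agent.LargeFischer.Thompson.enc_vecN (hlt b (List.mem_toFinset.1 hb))] at this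

theorem root_moved {i j m : Fin 6} (k : Fin 3) (h : i ≠ j) :
    wV m k ∈ moved (aP (pi2 i j)) ↔ m = i ∨ m = j := by
  have h1 := List.all_eq_true.1 (List.all_eq_true.1 rootMoveOK_true _ (mem_six i)) _ (mem_six j)
  rw [beq_val, decide_eq_false h, Bool.false_or] at h1
  have h2 := List.all_eq_true.1 (List.all_eq_true.1 h1 _ (mem_six m)) _ (mem_thr k)
  rw [beq_iff_eq, beq_val, beq_val] at h2
  rw [(moved_eq (pi2_lt h)).2.2.2]
  show enc (wV m k) ∈ mvL (pi2 i j) ↔ _
  rw [((line_facts m).2 k).2.1, ← List.contains_iff_mem, h2, Bool.or_eq_true, decide_eq_true_iff,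
    decide_eq_true_iff]

theorem star_fact {i j : Fin 6} (k : Fin 3) (h : i ≠ j) :
    ∃ v, aP (pi2 i j) v + v = wV i k ∧ (∀ l, Com v (wV i l) ↔ l = k) ∧ ∀ l, Com v (wV j l) := by
  have h1 := List.all_eq_true.1 (List.all_eq_true.1 starOK_true _ (mem_six i)) _ (mem_six j)
  rw [beq_val, decide_eq_false h, Bool.false_or] at h1
  have h2 := List.all_eq_true.1 h1 _ (mem_thr k)
  simp only [Bool.and_eq_true] at h2
  have hv := Nat.blt_eq.mp h2.1.1
  refine ⟨vecN (((starWit.getD i.val []).getD j.val []).getD k.val 4096), Cfsg.Agent.LargeFischer.Thompson.enc_injective ?_,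
    fun l => ?_, fun l => ?_⟩
  · rw [enc_move (pi2_lt h), Cfsg.Agent.LargeFischer.Thompson.enc_vecN hv, ((line_facts i).2 k).2.1]
    exact Nat.eq_of_beq_eq_true h2.1.2
  all_goals
    have h3 := List.all_eq_true.1 h2.2 _ (mem_thr l)
    rw [Bool.and_eq_true, beq_iff_eq, beq_val] at h3
    rw [← comB_iff, Cfsg.Agent.LargeFischer.Thompson.enc_vecN hv]
  · rw [((line_facts i).2 l).2.1, h3.1, decide_eq_true_iff]
  · rw [((line_facts j).2 l).2.1]
    exact h3.2

theorem inj_fact {i j : Fin 6} (h : i ≠ j) {v : Vec}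
    (hv : ∀ l, Com v (wV i l) ∧ Com v (wV j l)) : aP (pi2 i j) v = v := by
  wlog hlt : i < j generalizing i j
  · rw [(pi2_eq h (Ne.symm h)).2 (Or.inr ⟨rfl, rfl⟩)]
    exact this (Ne.symm h) (fun l => (hv l).symm) (lt_of_le_of_ne (not_lt.1 hlt) (Ne.symm h))
  have h1 := List.all_eq_true.1 (List.all_eq_true.1 injOK_true _ (mem_six i)) _ (mem_six j)
  rw [Bool.or_eq_true] at h1
  rcases h1 with h1 | h1
  · exact absurd (Nat.le_of_ble_eq_true h1) (not_le.2 hlt)
  have h2 := allB_spec_zero h1 (by norm_num : 4096 ≤ 2 ^ 12) (enc_lt v)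
  have hc : ∀ (m : Fin 6) (l : Fin 3), Com v (wV m l) → comB (enc v) (wN m l) = true :=
    fun m l q => by rw [← ((line_facts m).2 l).2.1, comB_iff]; exact q
  have a0 := hc i 0 (hv 0).1
  have a1 := hc i 1 (hv 1).1
  have a2 := hc i 2 (hv 2).1
  have b0 := hc j 0 (hv 0).2
  have b1 := hc j 1 (hv 1).2
  have b2 := hc j 2 (hv 2).2
  simp only [Fin.val_zero, Fin.val_one, Fin.val_two] at a0 a1 a2 b0 b1 b2
  simp only [a0, a1, a2, b0, b1, b2, Bool.and_self, cond_true, Bool.not_true, Bool.false_or] at h2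
  refine Cfsg.Agent.LargeFischer.Thompson.enc_injective ?_
  have h3 := Nat.eq_of_beq_eq_true h2
  rw [mvN] at h3
  rw [(aP_spec (pi2_lt h)).2.2 v]
  exact Nat.xor_eq_zero_iff.1 h3

theorem shift_fact {i j k : Fin 6} (l : Fin 3) (hij : i ≠ j) (hjk : j ≠ k) (hik : i ≠ k) :
    ∃ v, aP (pi2 i k) v = v ∧ aP (pi2 i j) v + v = wV j l := by
  have h1 := List.all_eq_true.1 (List.all_eq_true.1 (List.all_eq_true.1 shiftOK_true _ (mem_six i)) _
    (mem_six j)) _ (mem_six k)
  rw [beq_val, beq_val, beq_val, decide_eq_false hij, decide_eq_false hjk, decide_eq_false hik,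
    Bool.false_or, Bool.false_or, Bool.false_or] at h1
  have h2 := List.all_eq_true.1 h1 _ (mem_thr l)
  simp only [Bool.and_eq_true] at h2
  have hv := Nat.blt_eq.mp h2.1.1
  refine ⟨vecN ((((shiftWit.getD i.val []).getD j.val []).getD k.val []).getD l.val 4096),
    Cfsg.Agent.LargeFischer.Thompson.enc_injective ?_, Cfsg.Agent.LargeFischer.Thompson.enc_injective ?_⟩
  · have h3 := Nat.eq_of_beq_eq_true h2.1.2
    rw [(aP_spec (pi2_lt hik)).2.2, Cfsg.Agent.LargeFischer.Thompson.enc_vecN hv]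
    exact Nat.xor_eq_zero_iff.1 h3
  · rw [enc_move (pi2_lt hij), Cfsg.Agent.LargeFischer.Thompson.enc_vecN hv, ((line_facts j).2 l).2.1]
    exact Nat.eq_of_beq_eq_true h2.2

theorem meet_fact {x y : ℕ} (hx : x < 15) (hy : y < 15) (h : x ≠ y) :
    (moved (aP y) ∩ moved (aP x * aP y)).ncard ≤ 4 ∧
      4 ≤ ((fun v => aP y v + v) '' {v | aP x v = v}).ncard := by
  classical
  have h1 := List.all_eq_true.1 (List.all_eq_true.1 meetOK_true x (mem_fifteen hx)) y (mem_fifteen hy)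
  rw [show Nat.beq x y = false from Bool.eq_false_iff.2 fun q => h (Nat.eq_of_beq_eq_true q),
    Bool.false_or] at h1
  simp only [Bool.and_eq_true] at h1
  obtain ⟨⟨⟨hlen, hnd⟩, hw⟩, hany⟩ := h1
  obtain ⟨c, hc, h2⟩ := List.any_eq_true.1 hany
  rw [Bool.and_eq_true, beq_iff_eq] at h2
  have hc' : c < 15 := List.mem_range.1 hc
  have hxy : aP x * aP y = aP c := ((aP_spec hx).2.2.mul (aP_spec hy).2.2).eq (h2.1 ▸ (aP_spec hc').2.2)
  obtain ⟨-, -, hlty, hey⟩ := moved_eq hy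
  obtain ⟨-, -, -, hec⟩ := moved_eq hc'
  constructor
  · rw [hxy, hey, hec]
    refine le_trans ?_ (le_trans (List.toFinset_card_le _) (Nat.le_of_ble_eq_true h2.2))
    refine le_trans (Set.ncard_le_ncard (t := ↑(((mvL y).filter fun r => (mvL c).contains r).toFinset.image
      vecN)) ?_ (Finset.finite_toSet _)) ?_
    · rintro v ⟨ha, hb⟩
      rw [Finset.coe_image]
      refine ⟨enc v, ?_, vecN_enc v⟩
      rw [Finset.mem_coe, List.mem_toFinset, List.mem_filter, List.contains_iff_mem]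
      exact ⟨ha, hb⟩
    · rw [Set.ncard_coe_finset]
      exact Finset.card_image_le
  · set W := ((meetWit.getD x []).getD y []) with hW
    have hsub : ↑((W.map (mvN y)).toFinset.image vecN) ⊆
        (fun v => aP y v + v) '' {v | aP x v = v} := by
      rw [Finset.coe_image]
      rintro _ ⟨n, hn, rfl⟩
      rw [Finset.mem_coe, List.mem_toFinset, List.mem_map] at hn
      obtain ⟨u, hu, rfl⟩ := hn
      have h3 := List.all_eq_true.1 hw u hu
      rw [Bool.and_eq_true] at h3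
      have hu4 := Nat.blt_eq.mp h3.1
      refine ⟨vecN u, Cfsg.Agent.LargeFischer.Thompson.enc_injective ?_, ?_⟩
      · rw [(aP_spec hx).2.2, Cfsg.Agent.LargeFischer.Thompson.enc_vecN hu4]
        exact Nat.xor_eq_zero_iff.1 (Nat.eq_of_beq_eq_true h3.2)
      · show aP y (vecN u) + vecN u = _
        rw [← vecN_enc (aP y (vecN u) + vecN u), enc_move hy, Cfsg.Agent.LargeFischer.Thompson.enc_vecN hu4]
    refine le_trans (le_of_eq ?_) (Set.ncard_le_ncard hsub (Set.toFinite _))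
    rw [Set.ncard_coe_finset, Finset.card_image_of_injOn, List.toFinset_card_of_nodup (nodupB_spec hnd),
      List.length_map, Nat.eq_of_beq_eq_true hlen]
    intro a ha b hb q
    have hlt' : ∀ n ∈ W.map (mvN y), n < 4096 := by
      intro n hn
      obtain ⟨u, hu, rfl⟩ := List.mem_map.1 hn
      have h3 := List.all_eq_true.1 hw u hu
      rw [Bool.and_eq_true] at h3
      rw [← Cfsg.Agent.LargeFischer.Thompson.enc_vecN (Nat.blt_eq.mp h3.1), ← enc_move hy]
      exact enc_lt _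
    have := congrArg enc q
    rwa [Cfsg.Agent.LargeFischer.Thompson.enc_vecN (hlt' a (List.mem_toFinset.1 ha)),
      Cfsg.Agent.LargeFischer.Thompson.enc_vecN (hlt' b (List.mem_toFinset.1 hb))] at this

/-! ### The symmetries -/

theorem sig_fact {R : Subgroup (Equiv.Perm Vec)} (hR : Contains R) {g : ℕ} (hg : g < 3)
    {i j : ℕ} (hi : i < 6) (hj : j < 6) (hij : i ≠ j) :
    (sigTab.getD g []).getD i 6 < 6 ∧ (sigTab.getD g []).getD j 6 < 6 ∧
      (sigTab.getD g []).getD i 6 ≠ (sigTab.getD g []).getD j 6 ∧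
      wPerm (nWords.getD g []) * aP (pi2 i j) * (wPerm (nWords.getD g []))⁻¹ =
        aP (pi2 ((sigTab.getD g []).getD i 6) ((sigTab.getD g []).getD j 6)) := by
  have hg' : g ∈ thr := by interval_cases g <;> decide
  have h := fun (x : Fin 6) => List.all_eq_true.1 (List.all_eq_true.1 sigOK_true g hg') _ (mem_six x)
  have h1 := h ⟨i, hi⟩
  have h2 := h ⟨j, hj⟩
  simp only [Bool.and_eq_true] at h1 h2
  have hsi := Nat.blt_eq.mp h1.1
  have hsj := Nat.blt_eq.mp h2.1
  have h3 := List.all_eq_true.1 h1.2 _ (mem_six ⟨j, hj⟩)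
  rw [show Nat.beq i j = false from Bool.eq_false_iff.2 fun q => hij (Nat.eq_of_beq_eq_true q),
    Bool.false_or, Bool.and_eq_true, Bool.not_eq_true', beq_iff_eq] at h3
  have hne : (sigTab.getD g []).getD i 6 ≠ (sigTab.getD g []).getD j 6 := fun q => by
    rw [q] at h3
    simp at h3
  refine ⟨hsi, hsj, hne, ?_⟩
  have hr := (good_word hR hg).2
  exact ((hr.mul (aP_spec (pi2_lt (i := ⟨i, hi⟩) (j := ⟨j, hj⟩) (fun q => hij (congrArg Fin.val q)))).2.2).mul
    (hr.inv (norm_facts hg).2.2.1)).eq (h3.2 ▸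
    (aP_spec (pi2_lt (i := ⟨_, hsi⟩) (j := ⟨_, hsj⟩) (fun q => hne (congrArg Fin.val q)))).2.2)

theorem quad_lt {t : ℕ} (ht : t < 360) {x : ℕ} (hx : x < 4) :
    qd t x < 6 ∧ ∀ y < 4, x ≠ y → qd t x ≠ qd t y := by
  have h := quadOK_true
  simp only [quadOK, Bool.and_eq_true] at h
  have hmem : ∀ z < 4, z ∈ [0, 1, 2, 3] := by intro z hz; interval_cases z <;> decide
  have h2 := List.all_eq_true.1 (List.all_eq_true.1 h.1.2 t (List.mem_range.2 ht)) x (hmem x hx)
  rw [Bool.and_eq_true] at h2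
  refine ⟨Nat.blt_eq.mp h2.1, fun y hy hxy q => ?_⟩
  have h3 := List.all_eq_true.1 h2.2 y (hmem y hy)
  rw [show Nat.beq x y = false from Bool.eq_false_iff.2 fun e => hxy (Nat.eq_of_beq_eq_true e),
    Bool.false_or, q] at h3
  simp at h3

theorem quad_tree {R : Subgroup (Equiv.Perm Vec)} (hR : Contains R) : ∀ t < 360,
    ∃ n, Good R n ∧ ∀ x < 4, ∀ y < 4, x ≠ y →
      n * aP (pi2 (qd 0 x) (qd 0 y)) * n⁻¹ = aP (pi2 (qd t x) (qd t y)) := by
  intro t
  induction t using Nat.strong_induction_on with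
  | _ t ih =>
    intro ht
    have h := quadOK_true
    simp only [quadOK, Bool.and_eq_true] at h
    have h1 := List.all_eq_true.1 h.1.1.2 t (List.mem_range.2 ht)
    rw [Bool.or_eq_true] at h1
    rcases h1 with h1 | h1
    · rw [Nat.eq_of_beq_eq_true h1]
      exact ⟨1, Good.one R, fun x _ y _ _ => by simp⟩
    simp only [Bool.and_eq_true] at h1
    obtain ⟨⟨hp, hg⟩, hq⟩ := h1
    have hp' := Nat.blt_eq.mp hp
    have hg' := Nat.blt_eq.mp hg
    obtain ⟨n, hn, hconj⟩ := ih _ hp' (by omega)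
    obtain ⟨hm, -⟩ := good_word hR hg'
    refine ⟨_, hm.mul hn, fun x hx y hy hxy => ?_⟩
    have hmem : ∀ z < 4, z ∈ [0, 1, 2, 3] := by intro z hz; interval_cases z <;> decide
    rw [Nat.eq_of_beq_eq_true (List.all_eq_true.1 hq x (hmem x hx)),
      Nat.eq_of_beq_eq_true (List.all_eq_true.1 hq y (hmem y hy)),
      ← (sig_fact hR hg' (quad_lt (by omega) hx).1 (quad_lt (by omega) hy).1
        ((quad_lt (by omega) hx).2 y hy hxy)).2.2.2, ← hconj x hx y hy hxy]
    group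

theorem sym_fact {R : Subgroup (Equiv.Perm Vec)} (hR : Contains R) {i j k l i' j' k' l' : Fin 6}
    (h : [i, j, k, l].Nodup) (h' : [i', j', k', l'].Nodup) :
    ∃ n, Good R n ∧ n * aP (pi2 i j) * n⁻¹ = aP (pi2 i' j') ∧
      n * aP (pi2 j k) * n⁻¹ = aP (pi2 j' k') ∧ n * aP (pi2 k l) * n⁻¹ = aP (pi2 k' l') := by
  have h0 := quadOK_true
  simp only [quadOK, Bool.and_eq_true] at h0
  have hfind : ∀ a b c d : Fin 6, [a, b, c, d].Nodup → ∃ t < 360,
      qd t 0 = a ∧ qd t 1 = b ∧ qd t 2 = c ∧ qd t 3 = d := by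
    intro a b c d hn
    simp only [List.nodup_cons, List.mem_cons, List.not_mem_nil, or_false, not_or,
      List.nodup_nil, and_true, not_false_iff] at hn
    obtain ⟨⟨h1, h2, h3⟩, ⟨h4, h5⟩, h6⟩ := hn
    have e := List.all_eq_true.1 h0.2 _ (mem_six a)
    have e1 := List.all_eq_true.1 e _ (mem_six b)
    rw [beq_val, decide_eq_false h1, Bool.false_or] at e1
    have e2 := List.all_eq_true.1 e1 _ (mem_six c)
    rw [beq_val, beq_val, decide_eq_false h2, decide_eq_false h4, Bool.false_or, Bool.false_or] at e2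
    have e3 := List.all_eq_true.1 e2 _ (mem_six d)
    rw [beq_val, beq_val, beq_val, decide_eq_false h3, decide_eq_false h5, decide_eq_false h6,
      Bool.false_or, Bool.false_or, Bool.false_or, List.contains_iff_mem] at e3
    obtain ⟨t, ht, he⟩ := exists_getD [] e3
    refine ⟨t, Nat.eq_of_beq_eq_true h0.1.1.1 ▸ ht, ?_⟩
    unfold qd; rw [he]; exact ⟨rfl, rfl, rfl, rfl⟩
  obtain ⟨t, ht, t0, t1, t2, t3⟩ := hfind i j k l h
  obtain ⟨t', ht', s0, s1, s2, s3⟩ := hfind i' j' k' l' h'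
  obtain ⟨n, hn, hc⟩ := quad_tree hR t ht
  obtain ⟨m, hm, hd⟩ := quad_tree hR t' ht'
  refine ⟨m * n⁻¹, hm.mul hn.inv, ?_, ?_, ?_⟩
  · rw [← t0, ← t1, ← s0, ← s1, ← hc 0 (by norm_num) 1 (by norm_num) (by norm_num),
      ← hd 0 (by norm_num) 1 (by norm_num) (by norm_num)]
    group
  · rw [← t1, ← t2, ← s1, ← s2, ← hc 1 (by norm_num) 2 (by norm_num) (by norm_num),
      ← hd 1 (by norm_num) 2 (by norm_num) (by norm_num)]
    group
  · rw [← t2, ← t3, ← s2, ← s3, ← hc 2 (by norm_num) 3 (by norm_num) (by norm_num),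
      ← hd 2 (by norm_num) 3 (by norm_num) (by norm_num)]
    group

/-- The configuration of the concrete model. -/
noncomputable def fine {R : Subgroup (Equiv.Perm Vec)} (hR : Contains R) (hout : gP ∈ R) :
    Fine (model hR candJ candJ_ok gP rep_gP.1 hout) where
  a i j := aP (pi2 i j)
  w := wV
  a_mem i j h := ⟨(aP_spec (pi2_lt h)).1, (aP_spec (pi2_lt h)).2.1⟩
  a_surj x hx h1 := by
    obtain ⟨k, hk, rfl⟩ := aP_surj hx h1
    obtain ⟨i, j, hij, rfl⟩ := exists_pi2 hk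
    exact ⟨i, j, hij, rfl⟩
  a_eq i j k l h h' := ⟨fun q => (pi2_eq h h').1 (aP_inj (pi2_lt h) (pi2_lt h') q),
    fun q => congrArg aP ((pi2_eq h h').2 q)⟩
  a_mul _ _ _ h1 h2 h3 := mul_fact h1 h2 h3
  moved_card x hx h1 := by
    obtain ⟨k, hk, rfl⟩ := aP_surj hx h1
    exact ncard_moved hk
  w_mem i k := by
    show enc (wV i k) ∈ uList
    rw [((line_facts i).2 k).2.1]
    exact ((line_facts i).2 k).2.2.1
  w_root i k := by
    rw [IsRoot, ((line_facts i).2 k).2.1]
    exact ((line_facts i).2 k).2.2.2.1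
  w_surj u hu hr := root_surj hu hr
  w_inj i k j l h := by
    refine (((line_facts i).2 k).2.2.2.2 j l).1 ?_
    rw [← ((line_facts i).2 k).2.1, ← ((line_facts j).2 l).2.1, h]
  w_sum i := (line_facts i).1
  w_cross i j k l h := by
    rw [IsRoot, Cfsg.Agent.LargeFischer.Thompson.enc_add, ((line_facts i).2 k).2.1, ((line_facts j).2 l).2.1,
      (((line_facts i).2 k).2.2.2.2 j l).2 h]
    exact Bool.false_ne_true
  w_moved _ _ _ k h := root_moved k h
  star _ _ k h := star_fact k h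
  inj _ _ _ h hv := inj_fact h hv
  shift _ _ _ l h1 h2 h3 := shift_fact l h1 h2 h3
  meet_le x hx hx1 y hy hy1 h := by
    obtain ⟨k, hk, rfl⟩ := aP_surj hx hx1
    obtain ⟨l, hl, rfl⟩ := aP_surj hy hy1
    exact (meet_fact hk hl (fun q => h (congrArg aP q))).1
  meet_ge x hx hx1 y hy hy1 h := by
    obtain ⟨k, hk, rfl⟩ := aP_surj hx hx1
    obtain ⟨l, hl, rfl⟩ := aP_surj hy hy1
    exact (meet_fact hk hl (fun q => h (congrArg aP q))).2
  sym i j k l i' j' k' l' h h' := by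
    obtain ⟨n, ⟨h1, -, h3, h4⟩, e1, e2, e3⟩ := sym_fact hR h h'
    exact ⟨n, h1, h3, h4, e1, e2, e3⟩

end Cfsg.Agent.JFourType.Mat
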