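import Cfsg.Agent.JFourType.Mat.Final

/-!
In a simple group of Janko-four type every elementary abelian subgroup of order `2^11` is conjugate to the
one of the model; its normalizer induces `M₂₄` and has orbits of lengths 1771 and 276 on it.
-/

set_option autoImplicit false
set_option maxRecDepth 100000

namespace Cfsg.Agent.JFourType.Mat

open Cfsg
open Cfsg.Agent.GFour25
open Cfsg.Agent.SporB.FischerU (Vec)
open Cfsg.Agent.LargeFischer Cfsg.Agent.LargeFischer.Thompson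
open Cfsg.Agent.TTClass

/-- The bound on normal 2-subgroups of the stabiliser of a vector in the first orbit. -/
def SmallStab : Prop := ∀ {w : Vec}, IsRoot w → ∀ Y : Subgroup (Equiv.Perm Vec),
    Y ≤ R22 ⊓ MulAction.stabilizer (Equiv.Perm Vec) w →
    (∀ x ∈ R22 ⊓ MulAction.stabilizer (Equiv.Perm Vec) w, ∀ y ∈ Y, x * y * x⁻¹ ∈ Y) →
    IsPGroup 2 Y → Nat.card Y ≤ 16

variable {G : Type*} [Group G] [Finite G]

/-- A set-up exists. -/
theorem exists_setup [IsSimpleGroup G] {z : G} {P : Subgroup G} (hJ : IsOfJankoFourTypeWith z P)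
    (hsmall : Nat.card R22 = 2661120 → SmallStab) :
    Nonempty (Setup z (pCore 2 (Subgroup.centralizer ({z} : Set G)))) := by
  obtain ⟨rho, psi, M, q, D, -, hlin, -, hconjM, ⟨h0, hh0, hs0⟩, hlift, hscal, hker, hcM, hcR⟩ :=
    exists_frame hJ
  obtain ⟨g, hg, hgK⟩ := exists_conjugate rho M q hlin hlift hscal hker hcM
  set r := (MulAut.conj g).toMonoidHom.comp rho with hr
  have hKR : K22 ≤ r.range := by
    rw [← hgK, hr, MonoidHom.range_comp]
    exact Subgroup.map_mono (Subgroup.map_le_range _ _)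
  have hcK : Nat.card K22 = 1330560 := by
    rw [← hgK, Subgroup.card_map_of_injective (MulAut.conj g).injective, hcM]
  have hsemi : IsSemi true (g * rho h0 * g⁻¹) := by
    obtain ⟨b, hb⟩ := hg
    have h := (hb.mul hs0).mul hb.inv
    rwa [show ∀ b, xor (xor b true) b = true by decide] at h
  have hgP : gP ∈ r.range := gP_mem hKR hcK (s := g * rho h0 * g⁻¹) ⟨h0, rfl⟩ hsemi (fun k hk => by
    rw [← hgK] at hk ⊢
    obtain ⟨_, ⟨m, hm, rfl⟩, rfl⟩ := hk
    refine ⟨rho (h0 * m * h0⁻¹), ⟨_, hconjM m hm h0, rfl⟩, ?_⟩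
    simp [mul_assoc])
  have hcr : Nat.card r.range = 2661120 := by
    rw [hr, MonoidHom.range_comp, Subgroup.card_map_of_injective (MulAut.conj g).injective, hcR]
  have hR : R22 = r.range := by
    refine Subgroup.eq_of_le_of_card_ge (R22_le hKR hgP) ?_
    obtain ⟨k, hk⟩ := Subgroup.card_dvd_of_le K22_le_R22
    have h2 : 2 ≤ k := by
      by_contra hc
      push Not at hc
      have hpos : 0 < Nat.card R22 := Nat.card_pos
      have : k = 1 := by
        rcases k with _ | _ | k <;> simp_all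
      rw [this, mul_one] at hk
      exact gP_not_mem ((Subgroup.eq_of_le_of_card_ge K22_le_R22 hk.le).ge gP_mem_R22)
    rw [hcr, hk, hcK]
    omega
  -- the extraspecial group
  obtain ⟨g', hgE, hgne⟩ := exists_fused hJ
  obtain ⟨hz, hEx, hcardE, hself, -⟩ := hJ
  have hzE : z ∈ twoCoreOfCentralizer z := by
    refine hself ⟨Subgroup.mem_centralizer_singleton_iff.2 rfl, Subgroup.mem_centralizer_iff.2 ?_⟩
    intro e he
    obtain ⟨y, -, rfl⟩ := he
    exact Subgroup.mem_centralizer_singleton_iff.1 y.2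
  have hcent : Subgroup.centralizer (twoCoreOfCentralizer z : Set G) ≤ twoCoreOfCentralizer z := fun g hg =>
    hself ⟨Subgroup.mem_centralizer_singleton_iff.2 (Subgroup.mem_centralizer_iff.1 hg z hzE).symm, hg⟩
  obtain ⟨n, -, hS⟩ := LargeExtra.exists_setting hz rfl hEx hcent
  obtain rfl : n = 6 := by
    have h : 2 ^ 13 = 2 ^ (2 * n + 1) := hcardE.symm.trans hS.card
    have := Nat.pow_right_injective (le_refl 2) h
    omega
  have hB : Base z (pCore 2 (Subgroup.centralizer ({z} : Set G))) := by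
    refine ⟨hS.ci, le_antisymm (fun x hx => ?_) (Subgroup.zpowers_le.2 fun e he => hS.ci.comm e he),
      fun h hh => Subgroup.mem_normalizer_iff.2 fun e => ⟨fun he => ?_, fun he => ?_⟩, hcardE⟩
    · rcases hS.ci.of_central x (hcent hx) (fun e he => Subgroup.mem_centralizer_iff.1 hx e he) with e | e
      · exact e ▸ one_mem _
      · exact e ▸ Subgroup.mem_zpowers z
    · exact hS.norm h (Subgroup.mem_centralizer_singleton_iff.1 hh) e he
    · have := hS.norm h⁻¹ (Subgroup.mem_centralizer_singleton_iff.1 (inv_mem hh)) _ he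
      rwa [show h⁻¹ * (h * e * h⁻¹) * h⁻¹⁻¹ = e by group] at this
  obtain ⟨s, hsQ, hse⟩ := hgE
  have D' := ext_conj D hg
  let M0 : Model r.range := model ⟨hKR⟩ candJ candJ_ok gP rep_gP.1 hgP
  exact ⟨{ rho := r, psi := fun a => g (psi a), range := hR.symm, card_range := hR ▸ hcr, B := hB,
           other := ⟨g', ⟨s, hsQ⟩, hse.symm, fun e => hgne (hse.symm.trans e)⟩, zc := _, zc_coe := rfl,
           D := D', M := M0, P := fine ⟨hKR⟩ hgP, M_U := rfl, M_A := rfl, M_P := rfl,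
           small := hsmall (hR ▸ hcr) }⟩

namespace Setup

variable {z : G} {Q : Subgroup (Subgroup.centralizer ({z} : Set G))} [Q.Normal] (S : Setup z Q)

include S in
/-- Every elementary abelian subgroup of order `2^11` is a conjugate of the one of the model. -/
theorem exists_conj_KG (V : Subgroup G) (hV : IsElementaryAbelian 2 V) (hcard : Nat.card V = 2 ^ 11) :
    ∃ g : G, V = S.KG.map (MulAut.conj g).toMonoidHom := by
  haveI : Fact (Nat.Prime 2) := ⟨Nat.prime_two⟩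
  obtain ⟨T, hT⟩ := (IsPGroup.of_card hcard).exists_le_sylow
  obtain ⟨T0, hT0⟩ := S.T0_sylow
  obtain ⟨g, hg⟩ := MulAction.exists_smul_eq G T0 T
  refine ⟨g, ?_⟩
  have hle : V.map (MulAut.conj g⁻¹).toMonoidHom ≤ S.T0 := by
    refine (Subgroup.map_mono (hT.trans (le_of_eq ?_))).trans (le_of_eq ?_) (b := (S.T0.map (MulAut.conj g).toMonoidHom).map (MulAut.conj g⁻¹).toMonoidHom)
    · rw [← hg, ← hT0]; rfl
    · rw [map_conj_conj, inv_mul_cancel, map_conj_one]
  have he := (S.T0_max hle (elementary_conj hV)).2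
    ((Subgroup.card_map_of_injective (MulAut.conj g⁻¹).injective).trans hcard)
  rw [← he, map_conj_conj, mul_inv_cancel, map_conj_one]

/-- The conjugates of an element under the normalizer of a conjugate. -/
theorem orbit_map (g a : G) (B : Subgroup G) :
    {v : G | ∃ n ∈ Subgroup.normalizer ((B.map (MulAut.conj g).toMonoidHom : Subgroup G) : Set G),
      n * (g * a * g⁻¹) * n⁻¹ = v} =
      (fun x => g * x * g⁻¹) '' {v : G | ∃ n ∈ Subgroup.normalizer (B : Set G), n * a * n⁻¹ = v} := by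
  ext v
  constructor
  · rintro ⟨n, hn, rfl⟩
    refine ⟨_, ⟨g⁻¹ * n * g, mem_normalizer_map.1 hn, rfl⟩, ?_⟩
    group
  · rintro ⟨_, ⟨n, hn, rfl⟩, rfl⟩
    refine ⟨g * n * g⁻¹, mem_normalizer_map.2 ?_, by group⟩
    rw [show g⁻¹ * (g * n * g⁻¹) * g = n by group]
    exact hn

theorem ncard_orbit_z : {v : G | ∃ n ∈ S.Nm, n * z * n⁻¹ = v}.ncard = 1771 := by
  rw [show {v : G | ∃ n ∈ S.Nm, n * z * n⁻¹ = v} = Subtype.val '' {v : ↥S.KG | IsConj z (v : G)} from ?_,
    Set.ncard_image_of_injective _ Subtype.val_injective, S.ncard_conj_KG, S.count.1]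
  ext v
  constructor
  · rintro ⟨n, hn, rfl⟩
    exact ⟨⟨_, (Subgroup.mem_normalizer_iff.1 hn z).1 S.z_mem_KG⟩, isConj_iff.2 ⟨n, rfl⟩, rfl⟩
  · rintro ⟨w, hw, rfl⟩
    obtain ⟨g, hg⟩ := isConj_iff.1 hw
    obtain ⟨m, hm, hme⟩ := S.fusion S.z_mem_KG (g := g) (hg.symm ▸ w.2)
    exact ⟨m, hm, hme.trans hg⟩

theorem ncard_orbit_PG {t : G} (ht : t ∈ S.PG) :
    {v : G | ∃ n ∈ S.Nm, n * t * n⁻¹ = v}.ncard = 276 := by
  rw [show {v : G | ∃ n ∈ S.Nm, n * t * n⁻¹ = v} =
      Subtype.val '' S.pset from ?_, Set.ncard_image_of_injective _ Subtype.val_injective, S.ncard_pset]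
  ext v
  constructor
  · rintro ⟨n, hn, rfl⟩
    obtain ⟨y, hy, e⟩ := S.exists_of_PG (S.conj_mem_PG hn ht)
    exact ⟨y, hy, e⟩
  · rintro ⟨y, hy, rfl⟩
    exact S.PG_trans ht (S.mem_PG.2 hy)

include S in
/-- The orbits of the normalizer on any elementary abelian subgroup of order `2^11`. -/
theorem orbits (hcent : ∀ t ∈ S.PG, Subgroup.centralizer ({t} : Set G) ≤ S.Nm)
    (V : Subgroup G) (hV : IsElementaryAbelian 2 V) (hcard : Nat.card V = 2 ^ 11) :
    ∃ z' t : G, z' ∈ V ∧ t ∈ V ∧ t ≠ 1 ∧ IsConj z z' ∧ ¬ IsConj z t ∧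
      Set.ncard {v : G | ∃ n ∈ Subgroup.normalizer (V : Set G), n * z' * n⁻¹ = v} = 1771 ∧
      Set.ncard {v : G | ∃ n ∈ Subgroup.normalizer (V : Set G), n * t * n⁻¹ = v} = 276 ∧
      Subgroup.centralizer ({t} : Set G) ≤ Subgroup.normalizer (V : Set G) := by
  obtain ⟨g, rfl⟩ := S.exists_conj_KG V hV hcard
  obtain ⟨t, ht, ht1, htz⟩ := S.PG_nonempty
  have hinj : Function.Injective fun x => g * x * g⁻¹ := fun a b e => by simpa using e
  refine ⟨g * z * g⁻¹, g * t * g⁻¹, ⟨z, S.z_mem_KG, rfl⟩, ⟨t, ht, rfl⟩,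
    fun e => ht1 (conj_eq_one_iff.1 e), isConj_iff.2 ⟨g, rfl⟩,
    fun e => htz (e.trans (isConj_iff.2 ⟨g, rfl⟩).symm), ?_, ?_, fun x hx => mem_normalizer_map.2 ?_⟩
  · rw [orbit_map, Set.ncard_image_of_injective _ hinj]
    exact S.ncard_orbit_z
  · rw [orbit_map, Set.ncard_image_of_injective _ hinj]
    exact S.ncard_orbit_PG ⟨ht, ht1, htz⟩
  · refine hcent t ⟨ht, ht1, htz⟩ (Subgroup.mem_centralizer_singleton_iff.2 ?_)
    have h := Subgroup.mem_centralizer_singleton_iff.1 hx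
    calc g⁻¹ * x * g * t = g⁻¹ * (x * (g * t * g⁻¹)) * g := by group
      _ = t * (g⁻¹ * x * g) := by rw [h]; group

include S in
/-- The normalizer of an elementary abelian subgroup of order `2^11` induces `M₂₄` on it. -/
theorem normalizer_hom (V : Subgroup G) (hV : IsElementaryAbelian 2 V) (hcard : Nat.card V = 2 ^ 11) :
    Subgroup.centralizer (V : Set G) ≤ V ∧
      ∀ K : Subgroup G, K ≤ Subgroup.normalizer (V : Set G) → K ⊓ V = ⊥ →
        K ⊔ V = Subgroup.normalizer (V : Set G) → Spor.IsoM24 ↥K := by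
  obtain ⟨g, rfl⟩ := S.exists_conj_KG V hV hcard
  refine ⟨fun x hx => ?_, fun K hK hKV hsup => ?_⟩
  · refine ⟨g⁻¹ * x * g, ?_, show g * (g⁻¹ * x * g) * g⁻¹ = x by group⟩
    rw [← S.centralizer_KG]
    refine Subgroup.mem_centralizer_iff.2 fun y hy => ?_
    have h := Subgroup.mem_centralizer_iff.1 hx _ ⟨y, hy, rfl⟩
    simp only [MulEquiv.coe_toMonoidHom, MulAut.conj_apply] at h
    calc y * (g⁻¹ * x * g) = g⁻¹ * (g * y * g⁻¹ * x) * g := by group
      _ = g⁻¹ * x * g * y := by rw [h]; group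
  obtain ⟨Φ, hΦ, hker, -⟩ := S.exists_hom
  let f : ↥K →* ↥S.Nm :=
    { toFun := fun k => ⟨g⁻¹ * (k : G) * g, mem_normalizer_map.1 (hK k.2)⟩
      map_one' := Subtype.ext (by simp)
      map_mul' := fun a b => Subtype.ext (by
        show g⁻¹ * ((a : G) * b) * g = g⁻¹ * (a : G) * g * (g⁻¹ * (b : G) * g)
        group) }
  refine ⟨MulEquiv.ofBijective (Φ.comp f) ⟨(injective_iff_map_eq_one _).2 fun k hk => ?_, fun y => ?_⟩⟩
  · have h1 : f k ∈ Φ.ker := MonoidHom.mem_ker.2 hk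
    rw [hker, Subgroup.mem_subgroupOf] at h1
    have h2 : (k : G) ∈ S.KG.map (MulAut.conj g).toMonoidHom :=
      ⟨_, h1, show g * (g⁻¹ * (k : G) * g) * g⁻¹ = k by group⟩
    have h3 : (k : G) ∈ (⊥ : Subgroup G) := hKV ▸ ⟨k.2, h2⟩
    exact Subtype.ext (Subgroup.mem_bot.1 h3)
  · obtain ⟨m, rfl⟩ := hΦ y
    have hm : g * (m : G) * g⁻¹ ∈ Subgroup.normalizer
        ((S.KG.map (MulAut.conj g).toMonoidHom : Subgroup G) : Set G) :=
      mem_normalizer_map.2 (by rw [show g⁻¹ * (g * (m : G) * g⁻¹) * g = m by group]; exact m.2)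
    rw [← hsup, ← SetLike.mem_coe, Subgroup.coe_mul_of_left_le_normalizer_right K _ hK] at hm
    obtain ⟨k, hk, _, ⟨v, hv, rfl⟩, he⟩ := hm
    refine ⟨⟨k, hk⟩, ?_⟩
    have hfv : m = f ⟨k, hk⟩ * ⟨v, S.KG_le_Nm hv⟩ := Subtype.ext (by
      show (m : G) = g⁻¹ * k * g * v
      have he' : k * (g * v * g⁻¹) = g * (m : G) * g⁻¹ := he
      calc (m : G) = g⁻¹ * (g * (m : G) * g⁻¹) * g := by group
        _ = _ := by rw [← he']; group)
    rw [MonoidHom.comp_apply, hfv, map_mul, show Φ ⟨v, S.KG_le_Nm hv⟩ = 1 from MonoidHom.mem_ker.1 (hker ▸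
      Subgroup.mem_subgroupOf.2 hv), mul_one]

end Setup

end Cfsg.Agent.JFourType.Mat
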