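import Cfsg.Agent.JFourType.ThompsonModel
import Cfsg.Agent.JFourType.Mat.OrbitData

/-!
The semilinear extension of the triple cover of `M22` has two orbits on non-zero isotropic vectors, of
lengths 1386 and 693.
-/

set_option autoImplicit false
set_option maxRecDepth 100000

namespace Cfsg.Agent.JFourType.Mat

open Cfsg.Agent.GFour25 Cfsg.Agent.CosetCert
open Cfsg.Agent.SporB.FischerU (Vec vecN enc vecN_enc enc_lt)
open Cfsg.Agent.LargeFischer (IsSemi semiU)
open Cfsg.Agent.LargeFischer.Thompson
open Cfsg.Agent.TTClass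
open Data OrbitData

/-- The group of the cover and the semilinear involution. -/
noncomputable def R22 : Subgroup (Equiv.Perm Vec) := K22 ⊔ Subgroup.zpowers gP

theorem K22_le_R22 : K22 ≤ R22 := le_sup_left

theorem gP_mem_R22 : gP ∈ R22 := Subgroup.mem_sup_right (Subgroup.mem_zpowers _)

theorem R22_le {R : Subgroup (Equiv.Perm Vec)} (hK : K22 ≤ R) (hg : gP ∈ R) : R22 ≤ R :=
  sup_le hK (Subgroup.zpowers_le.2 hg)

theorem gP_not_mem : gP ∉ K22 := fun h => by
  have h1 := K22_linear h
  have h2 := semi_facts.2.2.2.2.2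
  have hm : IsSemi true (gP * gP⁻¹) := by
    have h3 := h2.mul h1.inv
    rwa [show xor true false = true from rfl] at h3
  rw [mul_inv_cancel] at hm
  have hv := hm.2.1 w4 (vecN 1)
  simp only [Equiv.Perm.one_apply] at hv
  revert hv
  decide +kernel

/-- The code belongs to the first orbit. -/
noncomputable def rootR (v : ℕ) : Bool := Nat.beq (Nat.land (Nat.shiftRight oMask v) 1) 1

/-- The vector belongs to the first orbit. -/
noncomputable def IsRoot (x : Vec) : Prop := rootR (enc x) = true

/-- The lists of the moves. -/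
noncomputable def moveL : List (List ℕ) := [aL, aI, bL, bI, cL, cI, gL]

/-- The move towards a representative. -/
noncomputable def nxt (v : ℕ) : ℕ :=
  apL (moveL.getD (Nat.land (Nat.shiftRight parT (3 * v)) 7) idL) v

/-- One of the two representatives. -/
noncomputable def isRep (v : ℕ) : Bool := Nat.beq v repU || Nat.beq v repW

/-- The representative reached from a code. -/
noncomputable def climb (n : ℕ) : ℕ → ℕ :=
  Nat.rec (motive := fun _ => ℕ → ℕ) (fun v => v) (fun _ ih v => bif isRep v then v else ih (nxt v)) n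

theorem climb_succ (n v : ℕ) : climb (n + 1) v = bif isRep v then v else climb n (nxt v) := rfl

/-- The check of the orbit trees and of invariance. -/
noncomputable def treeOK : Bool :=
  allB (fun v => (Nat.beq v 0 && !(rootR v)) || bif qN v then
      Nat.beq (climb 8 v) (bif rootR v then repU else repW)
    else !(rootR v)) 12 0

theorem treeOK_true : treeOK = true := by decide +kernel

/-- The first orbit is invariant. -/
noncomputable def invOK : Bool :=
  allB (fun v => moveL.all fun l => rootR (apL l v) == rootR v) 12 0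

theorem invOK_true : invOK = true := by decide +kernel

theorem reps_ok : (Nat.blt repU 4096 && Nat.blt repW 4096 && qN repU && qN repW && rootR repU &&
    !(rootR repW) && !(Nat.beq repW 0)) = true := by decide +kernel

theorem enc_zero' : enc (0 : Vec) = 0 := by
  conv_lhs => rw [show (0 : Vec) = vecN 0 by decide]
  exact enc_vecN (by norm_num)

/-- The permutation of a move. -/
noncomputable def moveP : ℕ → Equiv.Perm Vec
  | 6 => gP
  | 7 => 1
  | i => letter i

theorem moveP_spec (i : ℕ) (hi : i < 8) : moveP i ∈ R22 ∧ Rep (moveL.getD i idL) (moveP i) := by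
  obtain ⟨ha, hb, hc⟩ := gens_mem
  interval_cases i
  · exact ⟨K22_le_R22 ha, rep_aP.1⟩
  · exact ⟨K22_le_R22 (inv_mem ha), rep_aP.2⟩
  · exact ⟨K22_le_R22 hb, rep_bP.1⟩
  · exact ⟨K22_le_R22 (inv_mem hb), rep_bP.2⟩
  · exact ⟨K22_le_R22 hc, rep_cP.1⟩
  · exact ⟨K22_le_R22 (inv_mem hc), rep_cP.2⟩
  · exact ⟨gP_mem_R22, rep_gP.1⟩
  · exact ⟨one_mem _, Rep.one⟩

theorem exists_climb (n : ℕ) : ∀ x : Vec, ∃ k ∈ R22, k x = vecN (climb n (enc x)) := by
  induction n with
  | zero => exact fun x => ⟨1, one_mem _, (vecN_enc x).symm⟩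
  | succ n ih =>
    intro x
    rw [climb_succ]
    cases isRep (enc x) with
    | true => exact ⟨1, one_mem _, by simp [vecN_enc]⟩
    | false =>
      rw [cond_false]
      have hlt : Nat.land (Nat.shiftRight parT (3 * enc x)) 7 < 8 :=
        Nat.lt_succ_of_le Nat.and_le_right
      obtain ⟨hm, hr⟩ := moveP_spec _ hlt
      obtain ⟨k, hk, he⟩ := ih (moveP (Nat.land (Nat.shiftRight parT (3 * enc x)) 7) x)
      refine ⟨k * _, mul_mem hk hm, ?_⟩
      rw [Equiv.Perm.mul_apply, he, hr x]
      rfl

theorem root_iso {x : Vec} (h : IsRoot x) : x ≠ 0 ∧ UnitF4.H x x = 0 := by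
  have ht := allB_spec_zero treeOK_true (by norm_num : 4096 ≤ 2 ^ 12) (enc_lt x)
  rw [IsRoot] at h
  refine ⟨fun e => ?_, (qN_enc x).1 ?_⟩
  · rw [e, enc_zero'] at h
    revert h
    decide +kernel
  · revert ht
    rw [h]
    cases qN (enc x) <;> simp

/-- The two orbits. -/
theorem orbit_cases {x : Vec} (h0 : x ≠ 0) (hx : UnitF4.H x x = 0) :
    (IsRoot x ∧ ∃ k ∈ R22, k x = vecN repU) ∨ (¬ IsRoot x ∧ ∃ k ∈ R22, k x = vecN repW) := by
  have ht := allB_spec_zero treeOK_true (by norm_num : 4096 ≤ 2 ^ 12) (enc_lt x)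
  have hne : Nat.beq (enc x) 0 = false := Bool.eq_false_iff.2 fun e => h0 (by
    rw [← vecN_enc x, Nat.eq_of_beq_eq_true e]; decide)
  rw [hne, (qN_enc x).2 hx, Bool.false_and, Bool.false_or, cond_true] at ht
  obtain ⟨k, hk, he⟩ := exists_climb 8 x
  rw [Nat.eq_of_beq_eq_true ht] at he
  cases hr : rootR (enc x) with
  | true => exact Or.inl ⟨hr, k, hk, by rw [he, hr]; rfl⟩
  | false =>
    exact Or.inr ⟨fun h => Bool.false_ne_true (hr.symm.trans h), k, hk, by rw [he, hr]; rfl⟩

/-- The permutations preserving the first orbit. -/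
noncomputable def rootStab : Subgroup (Equiv.Perm Vec) where
  carrier := {g | ∀ x, IsRoot (g x) ↔ IsRoot x}
  one_mem' := fun _ => Iff.rfl
  mul_mem' := fun {g h} hg hh x => (hg (h x)).trans (hh x)
  inv_mem' := fun {g} hg x => by
    have h := hg (g⁻¹ x)
    rw [show g (g⁻¹ x) = x from g.apply_symm_apply x] at h
    exact h.symm

theorem R22_le_rootStab : R22 ≤ rootStab := by
  have key : ∀ i, i < 7 → moveP i ∈ rootStab := fun i hi x => by
    have h := List.all_eq_true.1 (allB_spec_zero invOK_true (by norm_num : 4096 ≤ 2 ^ 12) (enc_lt x))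
      (moveL.getD i idL) (by interval_cases i <;> simp [moveL])
    rw [beq_iff_eq] at h
    unfold IsRoot
    rw [(moveP_spec i (by omega)).2 x, h]
  refine R22_le ?_ (key 6 (by norm_num))
  rw [K22, Subgroup.closure_le]
  rintro y (rfl | rfl | rfl)
  exacts [key 0 (by norm_num), key 2 (by norm_num), key 4 (by norm_num)]

theorem root_apply {g : Equiv.Perm Vec} (hg : g ∈ R22) (x : Vec) : IsRoot (g x) ↔ IsRoot x :=
  R22_le_rootStab hg x

end Cfsg.Agent.JFourType.Mat
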