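import Cfsg.Agent.JFourType.Mat.Main

/-!
The stabiliser of a vector in the first orbit has no normal 2-subgroup of order above 16.
-/

set_option autoImplicit false
set_option maxRecDepth 100000

namespace Cfsg.Agent.JFourType.Mat

open Cfsg.Agent.GFour25 Cfsg.Agent.CosetCert
open Cfsg.Agent.SporB.FischerU (Vec vecN enc vecN_enc enc_lt)
open Cfsg.Agent.LargeFischer.Thompson
open Cfsg.Agent.TTClass
open Data OrbitData

/-- A root with a short orbit under the Sylow subgroup. -/
noncomputable def rootPt : ℕ := 333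

/-- A word fixing that root. -/
noncomputable def rootWord : List ℕ := [1, 1, 1, 4, 0, 0]

/-- The inverse word. -/
noncomputable def rootWordI : List ℕ := [1, 1, 5, 0, 0, 0]

/-- The places of the listed elements fixing the root. -/
noncomputable def fixIdx : List ℕ :=
  (List.range 256).filter fun i => Nat.beq (apL (candJ.elems.getD i []) rootPt) rootPt

/-- The places of the fixing elements whose conjugates are listed. -/
noncomputable def commonIdx : List ℕ :=
  fixIdx.filter fun i => candJ.elems.contains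
    (comp (comp (comp (wImg rootWord) (candJ.elems.getD i [])) (wImg rootWordI)) idL)

theorem root_checks : (Nat.beq fixIdx.length 128 && Nat.ble commonIdx.length 16 &&
    rootR rootPt && Nat.blt rootPt 4096 && Nat.beq (apL (wImg rootWord) rootPt) rootPt &&
    (comp (comp (wImg rootWord) (wImg rootWordI)) idL == idL)) = true := by decide +kernel

theorem no_fixed_root : allB (fun v => !(rootR v) ||
    candJ.gens.any fun g => !(Nat.beq (apL g v) v)) 12 0 = true := by decide +kernel

/-- The word as a permutation. -/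
theorem rootWord_spec : wPerm rootWord ∈ R22 ∧ wPerm rootWord (vecN rootPt) = vecN rootPt ∧
    (wPerm rootWord)⁻¹ = wPerm rootWordI := by
  have h := root_checks
  simp only [Bool.and_eq_true, beq_iff_eq] at h
  obtain ⟨⟨⟨⟨-, hlt⟩, he⟩, hinv⟩⟩ :
      (((True ∧ Nat.blt rootPt 4096 = true) ∧ Nat.beq (apL (wImg rootWord) rootPt) rootPt = true) ∧
        comp (comp (wImg rootWord) (wImg rootWordI)) idL = idL) ∧ True :=
    ⟨⟨⟨⟨trivial, h.1.1.2⟩, h.1.2⟩, h.2⟩, trivial⟩
  refine ⟨K22_le_R22 (word_mem _), Cfsg.Agent.LargeFischer.Thompson.enc_injective ?_, ?_⟩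
  · rw [rep_word rootWord _, Cfsg.Agent.LargeFischer.Thompson.enc_vecN (Nat.blt_eq.mp hlt)]
    exact Nat.eq_of_beq_eq_true he
  · refine inv_eq_of_mul_eq_one_right ?_
    have hr := ((rep_word rootWord).mul (rep_word rootWordI)).mul Rep.one
    rw [hinv, mul_one] at hr
    exact hr.eq Rep.one

theorem eq_getD {i : ℕ} (hi : i ∈ fixIdx) :
    i < 256 ∧ apL (candJ.elems.getD i []) rootPt = rootPt := by
  rw [fixIdx, List.mem_filter, List.mem_range] at hi
  exact ⟨hi.1, Nat.eq_of_beq_eq_true hi.2⟩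

theorem vecN_rootPt : enc (vecN rootPt) = rootPt := by
  refine Cfsg.Agent.LargeFischer.Thompson.enc_vecN ?_
  have h := root_checks
  simp only [Bool.and_eq_true] at h
  exact Nat.blt_eq.mp h.1.1.2

/-- The Sylow subgroup of the stabiliser of the root. -/
noncomputable def rootT : Subgroup (Equiv.Perm Vec) :=
  candP gP ⊓ MulAction.stabilizer (Equiv.Perm Vec) (vecN rootPt)

theorem card_rootT : 128 ≤ Nat.card rootT := by
  classical
  obtain ⟨hnd, hnorm⟩ := normal_facts candJ_ok.normal_elems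
  obtain ⟨hlen, -, -⟩ := par_facts candJ_ok
  choose σ hσ hr using fun i : fixIdx.toFinset =>
    elem_in_candP candJ_ok rep_gP.1 i.1 (eq_getD (List.mem_toFinset.1 i.2)).1
  let f : fixIdx.toFinset → rootT := fun i => ⟨σ i, hσ i, MulAction.mem_stabilizer_iff.2 (by
    show σ i (vecN rootPt) = vecN rootPt
    rw [(hr i).apply, vecN_rootPt, (eq_getD (List.mem_toFinset.1 i.2)).2])⟩
  have hinj : Function.Injective f := fun i j e => by
    have hi := (eq_getD (List.mem_toFinset.1 i.2)).1
    have hj := (eq_getD (List.mem_toFinset.1 j.2)).1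
    have e' : σ i = σ j := congrArg Subtype.val e
    have hl := (hr i).list_eq (e' ▸ hr j) (hnorm _ (getD_mem [] (hlen.symm ▸ hi))).1
      (hnorm _ (getD_mem [] (hlen.symm ▸ hj))).1
    rw [List.getD_eq_getElem _ _ (hlen.symm ▸ hi), List.getD_eq_getElem _ _ (hlen.symm ▸ hj)] at hl
    exact Subtype.ext ((hnd.getElem_inj_iff).1 hl)
  have h := Nat.card_le_card_of_injective f hinj
  rw [Nat.card_eq_fintype_card, Fintype.card_coe, List.toFinset_card_of_nodup
    (show fixIdx.Nodup from List.nodup_range.filter _)] at h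
  have h128 := root_checks
  simp only [Bool.and_eq_true] at h128
  rw [show fixIdx.length = 128 from Nat.eq_of_beq_eq_true h128.1.1.1.1.1] at h
  exact h

theorem small_of_card (hcard : Nat.card R22 = 2661120) : SmallStab := by
  intro w hw Y hY hn h2
  classical
  haveI : Fact (Nat.Prime 2) := ⟨Nat.prime_two⟩
  have h := root_checks
  simp only [Bool.and_eq_true] at h
  have hr : IsRoot (vecN rootPt) := by rw [IsRoot, vecN_rootPt]; exact h.1.1.1.2
  obtain ⟨k1, hk1, e1⟩ := ((orbit_cases (root_iso hw).1 (root_iso hw).2).resolve_right fun e => e.1 hw).2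
  obtain ⟨k2, hk2, e2⟩ := ((orbit_cases (root_iso hr).1 (root_iso hr).2).resolve_right fun e => e.1 hr).2
  set k := k2⁻¹ * k1
  have hk : k ∈ R22 := mul_mem (inv_mem hk2) hk1
  have hkw : k w = vecN rootPt := by
    show k2⁻¹ (k1 w) = _
    rw [e1, ← e2]
    exact k2.symm_apply_apply _
  set Y' := Y.map (MulAut.conj k).toMonoidHom with hY'
  rw [show Nat.card Y = Nat.card Y' from
    (Subgroup.card_map_of_injective (f := (MulAut.conj k).toMonoidHom) (MulAut.conj k).injective).symm]
  have hst : ∀ x : Equiv.Perm Vec, k⁻¹ * x * k ∈ MulAction.stabilizer (Equiv.Perm Vec) w ↔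
      x ∈ MulAction.stabilizer (Equiv.Perm Vec) (vecN rootPt) := fun x => by
    rw [MulAction.mem_stabilizer_iff, MulAction.mem_stabilizer_iff, ← hkw]
    show k⁻¹ (x (k w)) = w ↔ x (k w) = k w
    exact ⟨fun e => by conv_rhs => rw [← e]
                       exact (k.apply_symm_apply _).symm,
      fun e => by rw [e]; exact k.symm_apply_apply w⟩
  have hYle : Y' ≤ R22 ⊓ MulAction.stabilizer (Equiv.Perm Vec) (vecN rootPt) := by
    rintro _ ⟨y, hy, rfl⟩
    refine ⟨R22.mul_mem (R22.mul_mem hk (hY hy).1) (R22.inv_mem hk), (hst _).1 ?_⟩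
    show k⁻¹ * (k * y * k⁻¹) * k ∈ _
    rw [show k⁻¹ * (k * y * k⁻¹) * k = y by group]
    exact (hY hy).2
  have hYn : ∀ x ∈ R22 ⊓ MulAction.stabilizer (Equiv.Perm Vec) (vecN rootPt), ∀ y ∈ Y',
      x * y * x⁻¹ ∈ Y' := by
    rintro x hx _ ⟨y, hy, rfl⟩
    refine ⟨_, hn (k⁻¹ * x * k) ⟨R22.mul_mem (R22.mul_mem (R22.inv_mem hk) hx.1) hk, (hst x).2 hx.2⟩ y hy, ?_⟩
    show k * (k⁻¹ * x * k * y * (k⁻¹ * x * k)⁻¹) * k⁻¹ = x * (k * y * k⁻¹) * x⁻¹
    group
  have hY2 : IsPGroup 2 Y' := h2.map _
  have hPR : candP gP ≤ R22 := candP_le ⟨K22_le_R22⟩ gP_mem_R22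
  have hTR : rootT ≤ R22 := inf_le_left.trans hPR
  have hPc : Nat.card (candP gP) = 256 := card_candP candJ_ok rep_gP.1
  have hT2 : IsPGroup 2 rootT :=
    (IsPGroup.of_card (n := 8) (hPc.trans (by norm_num))).to_le inf_le_left
  set J := Y' ⊔ rootT with hJdef
  have hnorm : rootT ≤ Subgroup.normalizer (Y' : Set (Equiv.Perm Vec)) := fun x hx =>
    Subgroup.mem_normalizer_iff.2 fun y => ⟨hYn x ⟨hTR hx, hx.2⟩ y, fun hy => by
      have := hYn x⁻¹ ⟨R22.inv_mem (hTR hx), Subgroup.inv_mem _ hx.2⟩ _ hy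
      rwa [show x⁻¹ * (x * y * x⁻¹) * x⁻¹⁻¹ = y by group] at this⟩
  have hJp : IsPGroup 2 J := IsPGroup.to_sup_of_normal_left' hY2 hT2 hnorm
  have hJle : J ≤ R22 ⊓ MulAction.stabilizer (Equiv.Perm Vec) (vecN rootPt) :=
    sup_le hYle (le_inf hTR inf_le_right)
  -- move into the chosen Sylow subgroup
  obtain ⟨T1, hT1⟩ := (hJp.comap_of_injective R22.subtype R22.subtype_injective).exists_le_sylow
  obtain ⟨T2, hT2'⟩ := ((IsPGroup.of_card (n := 8) (hPc.trans (by norm_num : 256 = 2 ^ 8))).comap_of_injective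
    R22.subtype R22.subtype_injective).exists_le_sylow
  have hT2e : (T2 : Subgroup R22) = (candP gP).subgroupOf R22 := by
    refine (Subgroup.eq_of_le_of_card_ge hT2' ?_).symm
    rw [show Nat.card ((candP gP).comap R22.subtype) = 256 from
      (Nat.card_congr (Subgroup.subgroupOfEquivOfLe hPR).toEquiv).trans hPc,
      Sylow.card_eq_multiplicity, hcard, show (2661120 : ℕ) = 2 ^ 8 * 10395 by norm_num,
      Nat.factorization_mul (by norm_num) (by norm_num), Finsupp.add_apply, Nat.factorization_pow,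
      Finsupp.smul_apply, Nat.Prime.factorization_self Nat.prime_two,
      Nat.factorization_eq_zero_of_not_dvd (show ¬ 2 ∣ 10395 by norm_num)]
    norm_num
  obtain ⟨g, hg⟩ := MulAction.exists_smul_eq R22 T1 T2
  set n := (g : Equiv.Perm Vec)
  have hmap : J.map (MulAut.conj n).toMonoidHom ≤ candP gP := by
    rintro _ ⟨x, hx, rfl⟩
    have hm : g * ⟨x, (hJle hx).1⟩ * g⁻¹ ∈ (candP gP).subgroupOf R22 := by
      rw [← hT2e, ← hg]
      exact ⟨⟨x, (hJle hx).1⟩, hT1 hx, rfl⟩
    exact Subgroup.mem_subgroupOf.1 hm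
  have hJT : J = rootT := by
    refine (Subgroup.eq_of_le_of_card_ge le_sup_right ?_).symm
    refine le_trans ?_ card_rootT
    by_contra hlt
    push Not at hlt
    have hd : Nat.card J ∣ 256 := by
      rw [← Subgroup.card_map_of_injective (f := (MulAut.conj n).toMonoidHom) (K := J) (MulAut.conj n).injective, ← hPc]
      exact Subgroup.card_dvd_of_le hmap
    obtain ⟨i, hi, he⟩ := (Nat.dvd_prime_pow Nat.prime_two).1 (show Nat.card J ∣ 2 ^ 8 from hd)
    have h8 : i = 8 := by
      by_contra hne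
      have : 2 ^ i ≤ 2 ^ 7 := Nat.pow_le_pow_right (by norm_num) (by omega)
      exact absurd (lt_of_lt_of_le (hlt.trans_eq he) this) (lt_irrefl _)
    have heq : J.map (MulAut.conj n).toMonoidHom = candP gP := Subgroup.eq_of_le_of_card_ge hmap (by
      rw [Subgroup.card_map_of_injective (f := (MulAut.conj n).toMonoidHom) (MulAut.conj n).injective, he, h8, hPc]; norm_num)
    have hroot : IsRoot (n (vecN rootPt)) := (root_apply g.2 _).2 hr
    have hmv := allB_spec_zero no_fixed_root (by norm_num : 4096 ≤ 2 ^ 12) (enc_lt (n (vecN rootPt)))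
    rw [show rootR (enc (n (vecN rootPt))) = true from hroot, Bool.not_true, Bool.false_or] at hmv
    obtain ⟨l, hl, hmv⟩ := List.any_eq_true.1 hmv
    obtain ⟨i', hi', rfl⟩ := exists_getD [] hl
    obtain ⟨τ, hτ, hrτ⟩ := (gens_rep (C := candJ) rep_gP.1).2 i' (by
      rw [show candJ.gens.length = 4 by
        rw [Cand.gens, List.length_append, (evWord_facts (i := 0) (by norm_num)).2.2]; rfl] at hi'
      exact hi')
    have hτP : τ ∈ J.map (MulAut.conj n).toMonoidHom := heq ▸ Subgroup.subset_closure hτ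
    obtain ⟨x, hx, rfl⟩ := hτP
    have hfix : (MulAut.conj n).toMonoidHom x (n (vecN rootPt)) = n (vecN rootPt) := by
      show n (x (n⁻¹ (n (vecN rootPt)))) = _
      rw [show n⁻¹ (n (vecN rootPt)) = vecN rootPt from n.symm_apply_apply _,
        show x (vecN rootPt) = vecN rootPt from MulAction.mem_stabilizer_iff.1 (hJle hx).2]
    rw [← hrτ, hfix] at hmv
    simp at hmv
  -- the intersection of two Sylow subgroups
  obtain ⟨hgR, hgfix, hginv⟩ := rootWord_spec
  obtain ⟨hnd, hnormal⟩ := normal_facts candJ_ok.normal_elems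
  obtain ⟨hlen, -, -⟩ := par_facts candJ_ok
  choose e he hre using fun y : Y' => mem_candP_rep candJ_ok rep_gP.1
    ((le_sup_left.trans hJT.le : Y' ≤ rootT) y.2).1
  have hidx : ∀ y : Y', candJ.elems.idxOf (e y) ∈ commonIdx := fun y => by
    have hlt : candJ.elems.idxOf (e y) < 256 := hlen ▸ List.idxOf_lt_length_of_mem (he y)
    have hget : candJ.elems.getD (candJ.elems.idxOf (e y)) [] = e y := by
      rw [List.getD_eq_getElem _ _ (hlen.symm ▸ hlt)]
      exact List.getElem_idxOf _
    rw [commonIdx, List.mem_filter, fixIdx, List.mem_filter, List.mem_range, hget]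
    refine ⟨⟨hlt, ?_⟩, ?_⟩
    · rw [show apL (e y) rootPt = enc ((y : Equiv.Perm Vec) (vecN rootPt)) by rw [hre y, vecN_rootPt],
        show (y : Equiv.Perm Vec) (vecN rootPt) = vecN rootPt from
          MulAction.mem_stabilizer_iff.1 (hYle y.2).2, vecN_rootPt]
      exact Nat.beq_refl _
    · have hy' := hYn _ ⟨hgR, MulAction.mem_stabilizer_iff.2 hgfix⟩ _ y.2
      obtain ⟨e', he', hre'⟩ := mem_candP_rep candJ_ok rep_gP.1 ((le_sup_left.trans hJT.le : Y' ≤ rootT) hy').1
      rw [List.contains_iff_mem]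
      have hr2 := (((rep_word rootWord).mul (hre y)).mul (hginv ▸ rep_word rootWordI)).mul Rep.one
      rw [mul_one] at hr2
      rwa [hr2.list_eq hre' (comp_normal _ idL_normal) (hnormal _ he').1]
  have hinj : Function.Injective fun y : Y' => (⟨_, List.mem_toFinset.2 (hidx y)⟩ : commonIdx.toFinset) := by
    intro a b q
    have q' : e a = e b := List.idxOf_inj (he a) |>.1 (congrArg Subtype.val q)
    exact Subtype.ext ((hre a).eq (q' ▸ hre b))
  refine (Nat.card_le_card_of_injective _ hinj).trans ?_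
  rw [Nat.card_eq_fintype_card, Fintype.card_coe]
  exact (List.toFinset_card_le _).trans (Nat.le_of_ble_eq_true h.1.1.1.1.2)

/-- A set-up exists. -/
theorem exists_setup_full {G : Type*} [Group G] [Finite G] [IsSimpleGroup G] {z : G} {P : Subgroup G}
    (hJ : Cfsg.IsOfJankoFourTypeWith z P) :
    Nonempty (Setup z (Cfsg.pCore 2 (Subgroup.centralizer ({z} : Set G)))) :=
  exists_setup hJ small_of_card

end Cfsg.Agent.JFourType.Mat
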