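import Cfsg.Agent.JFourType.Mat.SplitSetup
import Cfsg.Agent.Lib.Gaschutz

/-!
The normaliser of an elementary abelian subgroup of order `2^11` splits over it: a complement inside
a Sylow 2-subgroup, and the theorem of Gaschütz.
-/

set_option autoImplicit false
set_option maxRecDepth 100000

namespace Cfsg.Agent.JFourType.Mat.Split

open Cfsg
open Cfsg.Agent.GFour25 Cfsg.Agent.CosetCert
open Cfsg.Agent.SporB.FischerU (Vec vecN enc vecN_enc enc_lt)
open Cfsg.Agent.LargeFischer (IsSemi semiU twist)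
open Cfsg.Agent.LargeFischer.Thompson
open Cfsg.Agent.TTClass
open Cfsg.Agent.JFourType
open Data SplitData
open scoped Pointwise

/-! ### The singular space -/

theorem w_facts : wList.length = 64 ∧ wList.Nodup ∧ 0 ∈ wList ∧ ∀ u ∈ wList, u < 4096 ∧ qN u = true ∧
    apL omL u ∈ wList ∧ (u = 0 ∨ u ∉ uList) ∧ ∀ v ∈ wList, u ^^^ v ∈ wList := by
  have h := wOK_true
  simp only [wOK, Bool.and_eq_true, List.all_eq_true, List.contains_iff_mem] at h
  obtain ⟨⟨⟨h1, h2⟩, h3⟩, h4⟩ := h
  refine ⟨Nat.eq_of_beq_eq_true h1, nodupB_spec h2, h3, fun u hu => ?_⟩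
  obtain ⟨⟨⟨⟨a, b⟩, c⟩, d⟩, e⟩ := h4 u hu
  refine ⟨Nat.blt_eq.mp a, b, c, ?_, e⟩
  rw [Bool.or_eq_true, Bool.not_eq_true'] at d
  refine d.imp Nat.eq_of_beq_eq_true fun d hm => ?_
  rw [List.contains_iff_mem.2 hm] at d
  exact absurd d (by decide)

theorem pres_facts : ∀ s ∈ [gN, xN, yN], (∀ u ∈ uList, apL s u ∈ uList) ∧
    (∀ u ∈ wList, apL s u ∈ wList) ∧ ∀ a ∈ aList, comp (comp s a) s ∈ aList := by
  have h := presOK_true
  simp only [presOK, List.all_eq_true, Bool.and_eq_true, List.contains_iff_mem] at h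
  exact fun s hs => ⟨(h s hs).1.1, (h s hs).1.2, (h s hs).2⟩

theorem om_smul {v : Vec} {c : F4} (hc : c ≠ 0 ∧ c ≠ 1) (hv : enc v ∈ wList) : enc (c • v) ∈ wList := by
  have h1 : ∀ v : Vec, enc v ∈ wList → enc (w4 • v) ∈ wList := fun v hv => by
    rw [← omP_apply, rep_omP v]
    exact (w_facts.2.2.2 _ hv).2.2.1
  rcases f4_cases c with e | e | e | e
  · exact absurd e hc.1
  · exact absurd e hc.2
  · exact e ▸ h1 v hv
  · rw [e, show (1 + w4 : F4) = w4 * w4 by decide, ← smul_smul]
    exact h1 _ (h1 v hv)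

theorem six_facts : sixList.Nodup ∧ sixList.length = 16 ∧ sixN 0 false false = idL ∧
    ∀ g ∈ sixList, g ∉ aList := by
  have h := sixOK_true
  simp only [sixOK, Bool.and_eq_true, List.all_eq_true, beq_iff_eq] at h
  refine ⟨distinctB_spec h.1.1.1, Nat.eq_of_beq_eq_true h.1.1.2, h.1.2, fun g hg hm => ?_⟩
  have := h.2 g hg
  rw [List.contains_iff_mem.2 hm] at this
  exact absurd this (by decide)

theorem powN_zero : powN 0 = idL := by rw [powN]

theorem powN_succ (n : ℕ) : powN (n + 1) = comp (powN n) (comp xN yN) := by rw [powN]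

theorem sixN_eq (i : ℕ) (j k : Bool) :
    sixN i j k = comp (comp (powN i) (bif j then xN else idL)) (bif k then gN else idL) := by rw [sixN]

theorem six_normal : (sixList.all fun g => comp g idL == g) = true := by decide +kernel

variable {G : Type*} [Group G] [Finite G] {z : G} {P : Subgroup G}
variable (S : Invol.Setup z P)

/-- The preimage of the singular space. -/
def Wt : Subgroup (Subgroup.centralizer ({z} : Set G)) where
  carrier := {h | ∃ hh : h ∈ pCore 2 (Subgroup.centralizer ({z} : Set G)), enc (S.psi ⟨h, hh⟩) ∈ wList}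
  one_mem' := ⟨one_mem _, by
    rw [show (⟨1, one_mem _⟩ : pCore 2 (Subgroup.centralizer ({z} : Set G))) = 1 from rfl, S.D.psi_one,
      enc_zero']
    exact w_facts.2.2.1⟩
  mul_mem' := fun {a b} ⟨ha, hau⟩ ⟨hb, hbu⟩ => ⟨mul_mem ha hb, by
    rw [show (⟨a * b, mul_mem ha hb⟩ : pCore 2 (Subgroup.centralizer ({z} : Set G))) = ⟨a, ha⟩ * ⟨b, hb⟩
      from rfl, S.D.psi_mul, enc_add]
    exact (w_facts.2.2.2 _ hau).2.2.2.2 _ hbu⟩
  inv_mem' := fun {a} ⟨ha, hau⟩ => ⟨inv_mem ha, by
    have h := S.D.psi_mul ⟨a, ha⟩ (⟨a, ha⟩⁻¹)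
    rw [mul_inv_cancel, S.D.psi_one] at h
    have h2 : S.psi (⟨a, ha⟩⁻¹) = S.psi ⟨a, ha⟩ := by
      rw [← zero_add (S.psi (⟨a, ha⟩⁻¹)), ← vec_self (S.psi ⟨a, ha⟩), add_assoc, ← h, add_zero]
    rw [show (⟨a⁻¹, inv_mem ha⟩ : pCore 2 (Subgroup.centralizer ({z} : Set G))) = ⟨a, ha⟩⁻¹ from rfl, h2]
    exact hau⟩

theorem Wt_sq {w : Subgroup.centralizer ({z} : Set G)} (hw : w ∈ Wt S) : w * w = 1 := by
  obtain ⟨hq, hu⟩ := hw
  exact congrArg Subtype.val ((S.D.psi_norm ⟨w, hq⟩).1 ((qN_enc _).1 (w_facts.2.2.2 _ hu).2.1))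

theorem Wt_comm {a b : Subgroup.centralizer ({z} : Set G)} (ha : a ∈ Wt S) (hb : b ∈ Wt S) :
    a * b = b * a :=
  comm_of_sq (Wt_sq S ha) (Wt_sq S hb) (Wt_sq S (mul_mem ha hb))

theorem Wt_le : Wt S ≤ pCore 2 (Subgroup.centralizer ({z} : Set G)) := fun _ hw => by
  obtain ⟨hq, -⟩ := hw
  exact hq

theorem zc_mem_Wt : zc z ∈ Wt S := ⟨S.D.z_mem, by
  rw [(S.D.psi_ker _).2 (Or.inr rfl), enc_zero']
  exact w_facts.2.2.1⟩

theorem Wt_card : Nat.card (Wt S) = 128 := by
  classical
  rw [(S.D.card_sub _ (Wt_le S)).2 (zc_mem_Wt S)]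
  have : S.psi '' {a | (a : Subgroup.centralizer ({z} : Set G)) ∈ Wt S} = ↑(wList.toFinset.image vecN) := by
    refine Set.Subset.antisymm ?_ ?_
    · rintro u ⟨a, ⟨ha, hu⟩, rfl⟩
      rw [Finset.coe_image]
      exact ⟨enc (S.psi a), List.mem_toFinset.2 hu, vecN_enc _⟩
    · rw [Finset.coe_image]
      rintro u ⟨n, hn, rfl⟩
      obtain ⟨a, ha⟩ := S.D.psi_surj (vecN n)
      refine ⟨a, ⟨a.2, ?_⟩, ha⟩
      rw [Subtype.coe_eta, ha, enc_vecN (w_facts.2.2.2 _ (List.mem_toFinset.1 hn)).1]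
      exact List.mem_toFinset.1 hn
  rw [this, Set.ncard_coe_finset, Finset.card_image_of_injOn, List.toFinset_card_of_nodup w_facts.2.1,
    w_facts.1]
  intro a ha b hb e
  rw [← enc_vecN (w_facts.2.2.2 _ (List.mem_toFinset.1 ha)).1, e,
    enc_vecN (w_facts.2.2.2 _ (List.mem_toFinset.1 hb)).1]

theorem Wt_p {w : Subgroup.centralizer ({z} : Set G)} (hw : w ∈ Wt S) : S.p * w * S.p⁻¹ ∈ Wt S := by
  obtain ⟨hq, hu⟩ := hw
  refine ⟨(inferInstance : (pCore 2 (Subgroup.centralizer ({z} : Set G))).Normal).conj_mem _ hq S.p, ?_⟩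
  rw [S.D.psi_conj S.p ⟨w, hq⟩, S.p_apply]
  exact om_smul S.c_ne hu

/-- The commutator with the generator of the subgroup of order three. -/
def comP : Wt S →* Subgroup.centralizer ({z} : Set G) :=
  MonoidHom.mk' (fun w => (w : Subgroup.centralizer ({z} : Set G))⁻¹ * (S.p * w * S.p⁻¹)) fun a b => by
    have ha : (a : Subgroup.centralizer ({z} : Set G))⁻¹ ∈ Wt S := inv_mem a.2
    have hb : (b : Subgroup.centralizer ({z} : Set G))⁻¹ ∈ Wt S := inv_mem b.2
    have hb' := mul_mem ha (Wt_p S a.2)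
    calc ((a * b : Wt S) : Subgroup.centralizer ({z} : Set G))⁻¹ * (S.p * (a * b : Wt S) * S.p⁻¹)
        = (b : Subgroup.centralizer ({z} : Set G))⁻¹ *
            ((a : Subgroup.centralizer ({z} : Set G))⁻¹ * (S.p * a * S.p⁻¹)) * (S.p * b * S.p⁻¹) := by
          rw [Subgroup.coe_mul]; group
      _ = _ := by rw [Wt_comm S hb hb', mul_assoc]

theorem comP_apply (w : Wt S) : comP S w = (w : Subgroup.centralizer ({z} : Set G))⁻¹ *
    (S.p * w * S.p⁻¹) := rfl

/-- The commutator subgroup of the preimage with the subgroup of order three. -/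
def W0 : Subgroup (Subgroup.centralizer ({z} : Set G)) := (comP S).range

theorem W0_le : W0 S ≤ Wt S := by
  rintro _ ⟨w, rfl⟩
  exact mul_mem (inv_mem w.2) (Wt_p S w.2)

theorem comP_zero {w : Wt S} (h : comP S w = 1 ∨ comP S w = zc z) :
    (w : Subgroup.centralizer ({z} : Set G)) = 1 ∨ (w : Subgroup.centralizer ({z} : Set G)) = zc z := by
  obtain ⟨hq, hu⟩ := w.2
  set Q := pCore 2 (Subgroup.centralizer ({z} : Set G))
  set w' : Q := ⟨(w : Subgroup.centralizer ({z} : Set G)), hq⟩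
  set v : Q := ⟨S.p * w * S.p⁻¹, (inferInstance : Q.Normal).conj_mem _ hq S.p⟩
  have h0 : S.psi (w'⁻¹ * v) = 0 := (S.D.psi_ker _).2 h
  have h1 : S.psi w' + S.psi (w'⁻¹ * v) = S.psi v := by rw [← S.D.psi_mul, mul_inv_cancel_left]
  rw [h0, add_zero, show S.psi v = S.rho S.p (S.psi w') from S.D.psi_conj S.p w', S.p_apply] at h1
  refine (S.D.psi_ker w').1 ?_
  by_contra hne
  exact S.c_ne.2 (smul_left_injective F4 hne (show S.c • S.psi w' = (1 : F4) • S.psi w' by
    rw [one_smul, ← h1]))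

theorem zc_not_mem : zc z ∉ W0 S := by
  rintro ⟨w, hw⟩
  obtain ⟨zcen, zsq, zne⟩ := zc_facts S
  rcases comP_zero S (Or.inr hw) with e | e <;> rw [comP_apply, e] at hw
  · exact zne (hw.symm.trans (by group))
  · rw [zcen S.p, mul_inv_cancel_right, inv_mul_cancel] at hw
    exact zne hw.symm

theorem W0_card : 64 ≤ Nat.card (W0 S) := by
  classical
  have hk : Nat.card (comP S).ker ≤ 2 := by
    have hinj : Function.Injective (fun k : (comP S).ker =>
        decide (((k : Wt S) : Subgroup.centralizer ({z} : Set G)) = 1)) := by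
      intro k l e
      simp only [decide_eq_decide] at e
      apply Subtype.ext
      apply Subtype.ext
      rcases comP_zero S (Or.inl k.2) with hk' | hk' <;> rcases comP_zero S (Or.inl l.2) with hl' | hl' <;>
        rw [hk', hl'] at e ⊢
      · exact absurd (e.1 rfl) S.D.z_ne
      · exact absurd (e.2 rfl) S.D.z_ne
    exact (Nat.card_le_card_of_injective _ hinj).trans (by simp)
  have h := (comP S).ker.card_mul_index
  rw [Subgroup.index_ker, Wt_card] at h
  show 64 ≤ Nat.card (comP S).range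
  nlinarith

theorem conj_W0 {h : Subgroup.centralizer ({z} : Set G)} (hh : h ∈ Lp S)
    (hW : ∀ u ∈ wList, ∀ v, enc v = u → enc (S.rho h v) ∈ wList) :
    ∀ w ∈ W0 S, h * w * h⁻¹ ∈ W0 S := by
  rintro _ ⟨⟨w, hq, hu⟩, rfl⟩
  have hw' : h * w * h⁻¹ ∈ Wt S :=
    ⟨(inferInstance : (pCore 2 (Subgroup.centralizer ({z} : Set G))).Normal).conj_mem _ hq h, by
      rw [S.D.psi_conj h ⟨w, hq⟩]
      exact hW _ hu _ rfl⟩
  rw [comP_apply]
  show h * (w⁻¹ * (S.p * w * S.p⁻¹)) * h⁻¹ ∈ W0 S
  set b := h * w * h⁻¹ with hb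
  set p' := h * S.p * h⁻¹ with hp'
  rw [show h * (w⁻¹ * (S.p * w * S.p⁻¹)) * h⁻¹ = b⁻¹ * (p' * b * p'⁻¹) by rw [hb, hp']; group]
  have hz : p' ∈ Subgroup.zpowers S.p := (Subgroup.mem_normalizer_iff.1 hh _).1 (Subgroup.mem_zpowers _)
  obtain ⟨k, hk⟩ := ((isOfFinOrder_of_finite S.p).mem_powers_iff_mem_zpowers).2 hz
  have hk' : S.p ^ k = p' := hk
  rw [← pow_mod_orderOf, p_ord S] at hk'
  have h3 : k % 3 < 3 := Nat.mod_lt _ (by norm_num)
  interval_cases hm : k % 3
  · rw [pow_zero] at hk'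
    rw [← hk', one_mul, inv_one, mul_one, inv_mul_cancel]
    exact one_mem _
  · rw [pow_one] at hk'
    exact ⟨⟨b, hw'⟩, by rw [comP_apply, ← hk']⟩
  · rw [← hk']
    have hc : S.p ^ 2 * b * (S.p ^ 2)⁻¹ = S.p * (S.p * b * S.p⁻¹) * S.p⁻¹ := by rw [pow_two]; group
    have e : b⁻¹ * (S.p ^ 2 * b * (S.p ^ 2)⁻¹) =
        comP S ⟨b, hw'⟩ * comP S ⟨_, Wt_p S hw'⟩ := by
      rw [comP_apply, comP_apply, hc]
      group
    rw [e]
    exact mul_mem ⟨_, rfl⟩ ⟨_, rfl⟩

set_option maxHeartbeats 1000000 in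
/-- A complement in a Sylow subgroup of the centraliser. -/
theorem exists_part [IsSimpleGroup G] (hJ : IsOfJankoFourTypeWith z P) :
    ∃ C1 : Subgroup (Subgroup.centralizer ({z} : Set G)), IsPGroup 2 C1 ∧
      (∀ c ∈ C1, ∀ k ∈ S.D.K S.Mo, c * k * c⁻¹ ∈ S.D.K S.Mo) ∧
      C1 ⊓ S.D.K S.Mo = ⊥ ∧ 1024 ≤ Nat.card C1 := by
  classical
  haveI : Fact (Nat.Prime 2) := ⟨Nat.prime_two⟩
  set H := Subgroup.centralizer ({z} : Set G)
  obtain ⟨x, y, g, hxL, hyL, hgL, hx, hy, hg, x2, y2, g2, u4, hgx, hgy⟩ := exists_gens hJ S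
  obtain ⟨u, hu⟩ : ∃ u, u = x * y := ⟨_, rfl⟩
  rw [← hu] at u4
  have hux : x * u = y := by rw [hu, ← mul_assoc, x2, one_mul]
  have hgu : g * u = u * g := by rw [hu, ← mul_assoc, hgx, mul_assoc, hgy, mul_assoc]
  set X := Subgroup.closure ({x, y, g} : Set H) with hX
  -- the normal form
  set F : ℕ → Bool → Bool → H := fun i j k => u ^ i * (bif j then x else 1) * (bif k then g else 1) with hF
  have hu3 : ∀ i, u ^ (i % 4) = u ^ i := fun i => by
    conv_rhs => rw [← Nat.mod_add_div i 4, pow_add, pow_mul, u4, one_pow, mul_one]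
  have hform : ∀ h ∈ X, ∃ i j k, i < 4 ∧ h = F i j k := by
    have hred : ∀ h, (∃ i j k, h = F i j k) → ∃ i j k, i < 4 ∧ h = F i j k := by
      rintro h ⟨i, j, k, rfl⟩
      exact ⟨i % 4, j, k, Nat.mod_lt _ (by norm_num), by simp only [hF, hu3]⟩
    intro h hh
    apply hred
    have hmem : h ∈ Submonoid.closure ({x, y, g} : Set H) := by
      rw [← Subgroup.closure_toSubmonoid_of_finite]
      exact hh
    induction hmem using Submonoid.closure_induction_right with
    | one => exact ⟨0, false, false, by simp [hF]⟩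
    | mul_right h hh' s hs ih =>
      obtain ⟨i, j, k, rfl⟩ := ih ((Subgroup.closure_toSubmonoid_of_finite (s := ({x, y, g} : Set H))).ge hh')
      have hxg : (bif k then g else 1) * x = x * (bif k then g else 1) := by
        cases k
        · rw [cond_false, one_mul, mul_one]
        · exact hgx
      have hug : (bif k then g else 1) * u = u * (bif k then g else 1) := by
        cases k
        · rw [cond_false, one_mul, mul_one]
        · exact hgu
      have hxj : ∀ j, (bif j then x else (1 : H)) * x = bif (!j) then x else 1 := by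
        intro j
        cases j
        · exact one_mul x
        · exact x2
      have hxu : x * u = u ^ 3 * x := by
        have h3 : u ^ 3 = u⁻¹ := eq_inv_of_mul_eq_one_left (by rw [← pow_succ]; exact u4)
        rw [hux, h3, hu, mul_inv_rev, inv_eq_of_mul_eq_one_right y2, inv_eq_of_mul_eq_one_right x2,
          mul_assoc, x2, mul_one]
      rcases hs with e | e | e
      · rw [e]
        refine ⟨i, !j, k, ?_⟩
        simp only [hF]
        rw [mul_assoc, hxg, ← mul_assoc, mul_assoc (u ^ i), hxj]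
      · rw [e]
        refine ⟨bif j then i + 1 else i + 3, !j, k, ?_⟩
        simp only [hF]
        rw [← hux]
        generalize hA : (bif j then x else (1 : H)) = A
        generalize hB : (bif k then g else (1 : H)) = B at hxg hug
        rw [show u ^ i * A * B * (x * u) = u ^ i * A * ((B * x) * u) by group, hxg, mul_assoc x, hug,
          show u ^ i * A * (x * (u * B)) = u ^ i * ((A * x) * u) * B by group, ← hA, hxj]
        cases j
        · simp only [Bool.not_false, cond_true, cond_false]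
          rw [hxu, ← mul_assoc, ← pow_add]
        · simp only [Bool.not_true, cond_true, cond_false]
          rw [one_mul, mul_one, ← pow_succ]
      · rw [Set.mem_singleton_iff.1 e]
        refine ⟨i, j, !k, ?_⟩
        simp only [hF]
        rw [mul_assoc]
        congr 1
        cases k
        · exact one_mul g
        · exact g2
  have hrepU : ∀ i, Rep (powN i) (S.rho (u ^ i)) := by
    intro i
    induction i with
    | zero => rw [powN_zero, pow_zero, map_one]; exact Rep.one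
    | succ i ih =>
      rw [powN_succ, pow_succ, map_mul]
      refine ih.mul ?_
      rw [hu, map_mul]
      exact hx.mul hy
  have hrepF : ∀ i j k, Rep (sixN i j k) (S.rho (F i j k)) := by
    intro i j k
    simp only [hF, map_mul, sixN_eq]
    refine ((hrepU i).mul ?_).mul ?_
    · cases j
      · rw [cond_false, cond_false, map_one]; exact Rep.one
      · exact hx
    · cases k
      · rw [cond_false, cond_false, map_one]; exact Rep.one
      · exact hg
  have hmem6 : ∀ i j k, i < 4 → sixN i j k ∈ sixList := by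
    intro i j k hi
    rw [sixList, List.mem_flatMap]
    refine ⟨i, List.mem_range.2 hi, ?_⟩
    cases j <;> cases k <;> simp
  have hnorm6 : ∀ s ∈ sixList, comp s idL = s := fun s hs => by
    have := List.all_eq_true.1 six_normal s hs
    simpa using this
  -- trivial image
  have hXA : ∀ h ∈ X, S.rho h ∈ aGrp → h = 1 := by
    intro h hh ha
    obtain ⟨i, j, k, hi, rfl⟩ := hform h hh
    rcases ha with e | ⟨a, ha, hr⟩
    · have e1 : sixN i j k = sixN 0 false false := by
        rw [six_facts.2.2.1]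
        exact (hrepF i j k).list_eq (e ▸ Rep.one) (hnorm6 _ (hmem6 i j k hi)) idL_normal
      have hnd := six_facts.1
      have : (i, j, k) = (0, false, false) := by
        have hinj : ∀ q ∈ ((List.range 4).flatMap fun i => [(i, false, false), (i, false, true),
            (i, true, false), (i, true, true)]), ∀ r ∈ ((List.range 4).flatMap fun i => [(i, false, false),
            (i, false, true), (i, true, false), (i, true, true)]),
            sixN q.1 q.2.1 q.2.2 = sixN r.1 r.2.1 r.2.2 → q = r := by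
          refine List.inj_on_of_nodup_map (f := fun q : ℕ × Bool × Bool => sixN q.1 q.2.1 q.2.2) ?_
          rw [List.map_flatMap]
          exact hnd
        refine hinj (i, j, k) ?_ (0, false, false) ?_ e1
        · rw [List.mem_flatMap]
          exact ⟨i, List.mem_range.2 hi, by cases j <;> cases k <;> simp⟩
        · rw [List.mem_flatMap]
          exact ⟨0, List.mem_range.2 (by norm_num), by simp⟩
      simp only [Prod.mk.injEq] at this
      obtain ⟨rfl, rfl, rfl⟩ := this
      simp [hF]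
    · exfalso
      refine six_facts.2.2.2 _ (hmem6 i j k hi) ?_
      rw [(hrepF i j k).list_eq hr (hnorm6 _ (hmem6 i j k hi)) (aList_facts.2.2 a ha).1]
      exact ha
  -- the image has order 16
  have hX16 : 16 ≤ Nat.card (X.map S.rho) := by
    choose f hf using fun q : sixList.toFinset => show ∃ σ ∈ X.map S.rho, Rep q.1 σ by
      obtain ⟨q, hq⟩ := q
      have hq' := List.mem_toFinset.1 hq
      rw [sixList, List.mem_flatMap] at hq'
      obtain ⟨i, -, hi⟩ := hq'
      have hFX : ∀ j k, F i j k ∈ X := fun j k => by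
        have hxX : x ∈ X := Subgroup.subset_closure (by simp)
        have hyX : y ∈ X := Subgroup.subset_closure (by simp)
        have hgX : g ∈ X := Subgroup.subset_closure (by simp)
        refine mul_mem (mul_mem (pow_mem (hu.symm ▸ mul_mem hxX hyX) i) ?_) ?_
        · cases j
          · exact one_mem X
          · exact hxX
        · cases k
          · exact one_mem X
          · exact hgX
      simp only [List.mem_cons, List.not_mem_nil, or_false] at hi
      rcases hi with rfl | rfl | rfl | rfl <;> exact ⟨_, ⟨_, hFX _ _, rfl⟩, hrepF i _ _⟩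
    have hinj : Function.Injective (fun q => (⟨f q, (hf q).1⟩ : X.map S.rho)) := fun q r e =>
      Subtype.ext ((hf q).2.list_eq (by rw [show f q = f r from congrArg Subtype.val e]; exact (hf r).2)
        (hnorm6 _ (List.mem_toFinset.1 q.2)) (hnorm6 _ (List.mem_toFinset.1 r.2)))
    have := Nat.card_le_card_of_injective _ hinj
    rwa [Nat.card_eq_fintype_card, Fintype.card_coe, List.toFinset_card_of_nodup six_facts.1,
      six_facts.2.1] at this
  -- the action of the generators
  have hgens : ∀ s ∈ ({x, y, g} : Set H), ∃ l ∈ [gN, xN, yN], Rep l (S.rho s) ∧ s ∈ Lp S ∧ s * s = 1 := by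
    rintro s (e | e | e)
    · rw [e]; exact ⟨xN, by simp, hx, hxL, x2⟩
    · rw [e]; exact ⟨yN, by simp, hy, hyL, y2⟩
    · rw [Set.mem_singleton_iff.1 e]; exact ⟨gN, by simp, hg, hgL, g2⟩
  have hnW : X ≤ Subgroup.normalizer (W0 S : Set H) := by
    rw [hX, Subgroup.closure_le]
    intro s hs
    obtain ⟨l, hl, hr, hsL, s2⟩ := hgens s hs
    have hsi : s⁻¹ = s := inv_eq_of_mul_eq_one_right s2
    have hW := conj_W0 S hsL fun a ha v hv => by
      rw [hr v, hv]
      exact (pres_facts l hl).2.1 a ha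
    refine Subgroup.mem_normalizer_iff.2 fun w => ⟨hW w, fun hw => ?_⟩
    have := hW _ hw
    rwa [show s * (s * w * s⁻¹) * s⁻¹ = (s * s) * w * (s * s)⁻¹ by group, s2, one_mul, inv_one,
      mul_one] at this
  have hnK : X ≤ Subgroup.normalizer (S.D.K S.Mo : Set H) := by
    rw [hX, Subgroup.closure_le]
    intro s hs
    obtain ⟨l, hl, hr, -, s2⟩ := hgens s hs
    have hrs : (S.rho s)⁻¹ = S.rho s := inv_eq_of_mul_eq_one_right (by rw [← map_mul, s2, map_one])
    have hK : ∀ k ∈ S.D.K S.Mo, s * k * s⁻¹ ∈ S.D.K S.Mo := fun k hk => by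
      refine S.D.conj_K S.Mo (fun v hv => ?_) (fun a ha => ?_) hk
      · show enc (S.rho s v) ∈ uList
        rw [hr v]
        exact (pres_facts l hl).1 _ hv
      · rw [hrs]
        rcases ha with rfl | ⟨b, hb, hs'⟩
        · rw [mul_one, ← map_mul, s2, map_one]
          exact Or.inl rfl
        · exact Or.inr ⟨_, (pres_facts l hl).2.2 b hb, (hr.mul hs').mul hr⟩
    refine Subgroup.mem_normalizer_iff.2 fun w => ⟨hK w, fun hw => ?_⟩
    have := hK _ hw
    rwa [show s * (s * w * s⁻¹) * s⁻¹ = (s * s) * w * (s * s)⁻¹ by group, s2, one_mul, inv_one,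
      mul_one] at this
  have hW2 : IsPGroup 2 (W0 S) := fun w => ⟨1, Subtype.ext (by
    show (w : H) ^ (2 ^ 1) = 1
    rw [pow_one, pow_two]
    exact Wt_sq S (W0_le S w.2))⟩
  have hX2 : IsPGroup 2 X := by
    have hinj : Function.Injective (fun h : X => S.rho (h : H)) := fun a b e => by
      have e' : S.rho (a : H) = S.rho (b : H) := e
      refine Subtype.ext (mul_inv_eq_one.1 (hXA _ (mul_mem a.2 (inv_mem b.2)) ?_))
      rw [map_mul, map_inv, e', mul_inv_cancel]
      exact one_mem _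
    let φ : X →* candP gP := (S.rho.comp X.subtype).codRestrict _ fun h => by
      have hsub : X ≤ (candP gP).comap S.rho := by
        rw [hX, Subgroup.closure_le]
        intro s hs
        show S.rho s ∈ candP gP
        rcases hs with e | e | e
        · obtain ⟨σ, hσ, hr⟩ := elem_in_candP candJ_ok rep_gP.1 xI rel_facts.2.1
          rw [e, hx.eq hr]; exact hσ
        · obtain ⟨σ, hσ, hr⟩ := elem_in_candP candJ_ok rep_gP.1 SplitData.yI rel_facts.2.2.1
          rw [e, hy.eq hr]; exact hσ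
        · obtain ⟨σ, hσ, hr⟩ := elem_in_candP candJ_ok rep_gP.1 gI rel_facts.1
          rw [Set.mem_singleton_iff.1 e, hg.eq hr]; exact hσ
      exact hsub h.2
    exact (IsPGroup.of_card (n := 8) (by rw [card_candP candJ_ok rep_gP.1]; norm_num)).of_injective φ
      fun a b e => hinj (congrArg Subtype.val e)
  refine ⟨W0 S ⊔ X, hW2.to_sup_of_normal_left' hX2 hnW, fun c hc => ?_, ?_, ?_⟩
  · have hall : W0 S ⊔ X ≤ Subgroup.normalizer (S.D.K S.Mo : Set H) := by
      refine sup_le (fun w hw => ?_) hnK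
      have hK : ∀ q ∈ pCore 2 (Subgroup.centralizer ({z} : Set G)), ∀ k ∈ S.D.K S.Mo,
          q * k * q⁻¹ ∈ S.D.K S.Mo := fun q hq k hk => by
        refine S.D.conj_K S.Mo (fun v hv => ?_) (fun a ha => ?_) hk
        · rw [S.D.rho_q hq]; exact hv
        · rw [S.D.rho_q hq, one_mul, inv_one, mul_one]; exact ha
      obtain ⟨hq, -⟩ := W0_le S hw
      refine Subgroup.mem_normalizer_iff.2 fun k => ⟨hK w hq k, fun hk => ?_⟩
      have := hK w⁻¹ (inv_mem hq) _ hk
      rwa [show w⁻¹ * (w * k * w⁻¹) * w⁻¹⁻¹ = k by group] at this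
    exact fun k => ((Subgroup.mem_normalizer_iff.1 (hall hc)) k).1
  · refine le_bot_iff.1 fun c hc => ?_
    obtain ⟨hc1, hc2⟩ := hc
    have hcm : c ∈ (W0 S : Set H) * (X : Set H) := by
      rw [← Subgroup.coe_mul_of_right_le_normalizer_left _ _ hnW]
      exact hc1
    obtain ⟨w, hw, h, hh, rfl⟩ := hcm
    have hwQ : w ∈ pCore 2 (Subgroup.centralizer ({z} : Set G)) := Wt_le S (W0_le S hw)
    have ha : S.rho (w * h) ∈ aGrp := ((S.D.mem_K S.Mo).1 hc2).2
    rw [map_mul, S.D.rho_q hwQ, one_mul] at ha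
    obtain rfl := hXA h hh ha
    simp only [mul_one] at hc2 ⊢
    have hP0 : w ∈ S.D.P0 S.Mo := (S.D.K_inf S.Mo).le ⟨hc2, hwQ⟩
    obtain ⟨hq', hu'⟩ := hP0
    obtain ⟨hq'', hw'⟩ := W0_le S hw
    have h0 : S.psi ⟨w, hq'⟩ = 0 := by
      rcases (w_facts.2.2.2 _ hw').2.2.2.1 with e | e
      · exact enc_injective (e.trans enc_zero'.symm)
      · exact absurd hu' e
    rcases (S.D.psi_ker _).1 h0 with e | e
    · exact Subgroup.mem_bot.2 e
    · exact absurd (show zc z ∈ W0 S by rw [← show w = zc z from e]; exact hw) (zc_not_mem S)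
  · rw [S.D.card_split (W0 S ⊔ X)]
    calc (1024 : ℕ) = 16 * 64 := by norm_num
      _ ≤ _ := Nat.mul_le_mul
        (hX16.trans (Subgroup.card_le_of_le (Subgroup.map_mono le_sup_right)))
        ((W0_card S).trans (Subgroup.card_le_of_le
          (le_inf le_sup_left fun w hw => Wt_le S (W0_le S hw))))

include S in
/-- The normaliser of an elementary abelian subgroup of order `2^11` splits over it. -/
theorem exists_complement_of_setup [IsSimpleGroup G] (hJ : IsOfJankoFourTypeWith z P) (V : Subgroup G)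
    (hV : IsElementaryAbelian 2 V) (hcard : Nat.card V = 2 ^ 11) :
    ∃ K : Subgroup G, K ≤ Subgroup.normalizer (V : Set G) ∧ K ⊓ V = ⊥ ∧
      K ⊔ V = Subgroup.normalizer (V : Set G) := by
  classical
  haveI : Fact (Nat.Prime 2) := ⟨Nat.prime_two⟩
  obtain ⟨T, -, -, hTK⟩ := exists_mat hJ S
  obtain ⟨g, hg⟩ := T.exists_conj_KG V hV hcard
  set H := Subgroup.centralizer ({z} : Set G)
  obtain ⟨C1, hC2, hCn, hCK, hCc⟩ := exists_part S hJ
  rw [← hTK] at hCn hCK
  set A := C1.map H.subtype with hA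
  set N := Subgroup.normalizer (T.KG : Set G) with hN
  have hAN : A ≤ N := by
    rintro _ ⟨c, hc, rfl⟩
    have h1 : ∀ c ∈ C1, ∀ k ∈ T.KG, (c : G) * k * (c : G)⁻¹ ∈ T.KG := by
      rintro c hc _ ⟨k, hk, rfl⟩
      exact ⟨c * k * c⁻¹, hCn c hc k hk, rfl⟩
    refine Subgroup.mem_normalizer_iff.2 fun k => ⟨h1 c hc k, fun hk => ?_⟩
    have := h1 _ (inv_mem hc) _ hk
    rw [Subgroup.coe_inv] at this
    change (c : G)⁻¹ * ((c : G) * k * (c : G)⁻¹) * (c : G)⁻¹⁻¹ ∈ T.KG at this
    rwa [show (c : G)⁻¹ * ((c : G) * k * (c : G)⁻¹) * (c : G)⁻¹⁻¹ = k by group] at this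
  have hKN : T.KG ≤ N := Subgroup.le_normalizer
  have hAK : A ⊓ T.KG = ⊥ := by
    rw [hA, ← Subgroup.map_inf _ _ _ H.subtype_injective, hCK, Subgroup.map_bot]
  have hAc : 1024 ≤ Nat.card A := by
    rw [hA, Subgroup.card_map_of_injective H.subtype_injective]
    exact hCc
  have hKp : IsPGroup 2 T.KG := IsPGroup.of_card T.KG_card
  set U := T.KG ⊔ A with hU
  have hU2 : IsPGroup 2 U := hKp.to_sup_of_normal_left' (hC2.map _) hAN
  have hUc : 2 ^ 21 ≤ Nat.card U := by
    have hinj : Function.Injective (fun q : T.KG × A =>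
        (⟨q.1.1 * q.2.1, mul_mem (Subgroup.mem_sup_left q.1.2) (Subgroup.mem_sup_right q.2.2)⟩ : U)) := by
      rintro ⟨k, a⟩ ⟨k', a'⟩ e
      have e' : (k : G) * a = k' * a' := congrArg Subtype.val e
      have h : (a : G) * (a' : G)⁻¹ ∈ A ⊓ T.KG := ⟨Subgroup.mul_mem _ a.2 (Subgroup.inv_mem _ a'.2), by
        rw [show (a : G) * (a' : G)⁻¹ = (k : G)⁻¹ * ((k : G) * a) * (a' : G)⁻¹ by group, e',
          show (k : G)⁻¹ * ((k' : G) * a') * (a' : G)⁻¹ = (k : G)⁻¹ * k' by group]
        exact Subgroup.mul_mem _ (Subgroup.inv_mem _ k.2) k'.2⟩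
      rw [hAK, Subgroup.mem_bot, mul_inv_eq_one] at h
      obtain rfl : a = a' := Subtype.ext h
      obtain rfl : k = k' := Subtype.ext (mul_right_cancel e')
      rfl
    have := Nat.card_le_card_of_injective _ hinj
    rw [Nat.card_prod, T.KG_card] at this
    calc 2 ^ 21 = 2 ^ 11 * 1024 := by norm_num
      _ ≤ 2 ^ 11 * Nat.card A := Nat.mul_le_mul_left _ hAc
      _ ≤ _ := this
  haveI : (T.KG.subgroupOf N).Normal := Subgroup.normal_in_normalizer
  haveI : IsMulCommutative (T.KG.subgroupOf N) := ⟨⟨fun a b => by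
    have h := T.KG_elem.1.is_comm.comm (⟨_, Subgroup.mem_subgroupOf.1 a.2⟩ : T.KG)
      ⟨_, Subgroup.mem_subgroupOf.1 b.2⟩
    exact Subtype.ext (Subtype.ext ((Subtype.mk.injEq _ _ _ _).mp h))⟩⟩
  have hUN : U ≤ N := sup_le hKN hAN
  have hcop : (Nat.card (T.KG.subgroupOf N)).Coprime (U.subgroupOf N).index := by
    rw [Nat.card_congr (Subgroup.subgroupOfEquivOfLe hKN).toEquiv, T.KG_card]
    refine Nat.Coprime.pow_left _ ((Nat.prime_two.coprime_iff_not_dvd).2 fun hd => ?_)
    obtain ⟨T0, hT0⟩ := T.T0_sylow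
    obtain ⟨n, hn⟩ := hU2.exists_card_eq
    have hn21 : 21 ≤ n := (Nat.pow_le_pow_iff_right (le_refl 2)).1 (hn ▸ hUc)
    have h22 : 2 ^ 22 ∣ Nat.card G := by
      refine dvd_trans ?_ (Subgroup.card_subgroup_dvd_card N)
      rw [← (U.subgroupOf N).card_mul_index, Nat.card_congr (Subgroup.subgroupOfEquivOfLe hUN).toEquiv, hn,
        show 2 ^ 22 = 2 ^ 21 * 2 by norm_num]
      exact mul_dvd_mul (pow_dvd_pow 2 hn21) hd
    rw [Nat.prime_two.pow_dvd_iff_le_factorization Nat.card_pos.ne'] at h22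
    have hc0 := T0.card_eq_multiplicity
    rw [show Nat.card ↥(T0 : Subgroup G) = 2 ^ 21 from hT0 ▸ T.card_T0] at hc0
    have := Nat.pow_right_injective (le_refl 2) hc0
    omega
  have hAK' : A.subgroupOf N ⊓ T.KG.subgroupOf N = ⊥ := by
    refine le_bot_iff.1 fun a ha => Subgroup.mem_bot.2 (Subtype.ext ?_)
    have : (a : G) ∈ A ⊓ T.KG := ha
    rwa [hAK, Subgroup.mem_bot] at this
  obtain ⟨K, hK⟩ := Gaschutz.exists_complement (T.KG.subgroupOf N) (U.subgroupOf N)
    (Subgroup.comap_mono le_sup_left) hcop (A.subgroupOf N) hAK' (Subgroup.subgroupOf_sup hKN hAN).symm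
  set K0 := K.map N.subtype with hK0
  have e1 : K0 ⊓ T.KG = ⊥ := by
    rw [hK0, ← Subgroup.map_subgroupOf_eq_of_le hKN, ← Subgroup.map_inf _ _ _ N.subtype_injective,
      inf_comm, hK.disjoint.eq_bot, Subgroup.map_bot]
  have e2 : K0 ⊔ T.KG = N := by
    rw [hK0, ← Subgroup.map_subgroupOf_eq_of_le hKN, ← Subgroup.map_sup, sup_comm, hK.sup_eq_top,
      ← MonoidHom.range_eq_map, Subgroup.range_subtype]
  have e3 : Subgroup.normalizer (V : Set G) = N.map (MulAut.conj g).toMonoidHom := by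
    ext m
    rw [hg, Setup.mem_normalizer_map]
    constructor
    · intro h
      exact ⟨_, h, show g * (g⁻¹ * m * g) * g⁻¹ = m by group⟩
    · rintro ⟨n, hn, rfl⟩
      show g⁻¹ * (g * n * g⁻¹) * g ∈ N
      rwa [show g⁻¹ * (g * n * g⁻¹) * g = n by group]
  refine ⟨K0.map (MulAut.conj g).toMonoidHom, ?_, ?_, ?_⟩
  · rw [e3]
    exact Subgroup.map_mono (Subgroup.map_subtype_le _)
  · rw [hg, ← Subgroup.map_inf _ _ _ (MulAut.conj g).injective, e1, Subgroup.map_bot]
  · rw [e3, hg, ← Subgroup.map_sup, e2]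

/-- The normaliser of an elementary abelian subgroup of order `2^11` splits over it. -/
theorem exists_complement [IsSimpleGroup G] (hJ : IsOfJankoFourTypeWith z P) (V : Subgroup G)
    (hV : IsElementaryAbelian 2 V) (hcard : Nat.card V = 2 ^ 11) :
    ∃ K : Subgroup G, K ≤ Subgroup.normalizer (V : Set G) ∧ K ⊓ V = ⊥ ∧
      K ⊔ V = Subgroup.normalizer (V : Set G) := by
  obtain ⟨S⟩ := Invol.exists_setup hJ
  exact exists_complement_of_setup S hJ V hV hcard

end Cfsg.Agent.JFourType.Mat.Split
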