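import Cfsg.Agent.JFourType.Mat.SplitData
import Cfsg.Agent.JFourType.Mat.Orbits

/-!
Kernel checks for a complement to the elementary abelian subgroup of order `2^11` in a Sylow
2-subgroup, in the model.
-/

set_option autoImplicit false
set_option maxRecDepth 100000

namespace Cfsg.Agent.JFourType.Mat.Split

open Cfsg.Agent.GFour25 Cfsg.Agent.CosetCert
open Cfsg.Agent.SporB.FischerU (Vec vecN enc vecN_enc enc_lt)
open Cfsg.Agent.LargeFischer.Thompson
open Data SplitData

/-- An element of the Sylow subgroup. -/
noncomputable def eN (i : ℕ) : List ℕ := elemsP.getD i []

/-- The semilinear involution. -/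
noncomputable def gN : List ℕ := eN gI

/-- The first linear involution. -/
noncomputable def xN : List ℕ := eN xI

/-- The second linear involution. -/
noncomputable def yN : List ℕ := eN yI

/-- Powers of the product of the two linear involutions. -/
noncomputable def powN : ℕ → List ℕ
  | 0 => idL
  | n + 1 => comp (powN n) (comp xN yN)

/-- An element of the group of order sixteen. -/
noncomputable def sixN (i : ℕ) (j k : Bool) : List ℕ :=
  comp (comp (powN i) (bif j then xN else idL)) (bif k then gN else idL)

/-- The sixteen elements. -/
noncomputable def sixList : List (List ℕ) :=
  (List.range 4).flatMap fun i => [sixN i false false, sixN i false true, sixN i true false, sixN i true true]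

/-- The relations. -/
noncomputable def relOK : Bool :=
  Nat.blt gI 256 && Nat.blt xI 256 && Nat.blt yI 256 &&
  (comp gN gN == idL) && (comp xN xN == idL) && (comp yN yN == idL) &&
  (comp (powN 3) (comp xN yN) == idL) &&
  (comp gN xN == comp xN gN) && (comp gN yN == comp yN gN) && semiOK true gN

theorem relOK_true : relOK = true := by decide +kernel

/-- The sixteen elements are distinct and meet the distinguished subgroup trivially. -/
noncomputable def sixOK : Bool :=
  distinctB sixList && Nat.beq sixList.length 16 && (sixN 0 false false == idL) &&
    sixList.all fun g => !(aList.contains g)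

theorem sixOK_true : sixOK = true := by decide +kernel

/-- The group preserves the two singular spaces and the distinguished subgroup. -/
noncomputable def presOK : Bool :=
  [gN, xN, yN].all fun s => (uList.all fun u => uList.contains (apL s u)) &&
    (wList.all fun u => wList.contains (apL s u)) &&
    aList.all fun a => aList.contains (comp (comp s a) s)

theorem presOK_true : presOK = true := by decide +kernel

/-- The singular space. -/
noncomputable def wOK : Bool :=
  Nat.beq wList.length 64 && nodupB wList && wList.contains 0 &&
    wList.all fun u => Nat.blt u 4096 && qN u && wList.contains (apL omL u) &&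
      (Nat.beq u 0 || !(uList.contains u)) && wList.all fun v => wList.contains (u ^^^ v)

theorem wOK_true : wOK = true := by decide +kernel

/-- A conjugation by a word. -/
noncomputable def cjOK (w w' : List ℕ) (s t : List ℕ) : Bool :=
  (comp (wImg w') (wImg w) == idL) && (comp (comp (wImg w) s) (wImg w') == t)

/-- The classes. -/
noncomputable def classOK : Bool :=
  cjOK xWord xWordInv (aList.getD 0 []) xN && cjOK yWord yWordInv (aList.getD 0 []) yN &&
    cjOK sWord sWordInv (aList.getD 0 []) (powN 2) && cjOK gxWord gxWordInv gN (comp gN xN) &&
    cjOK gyWord gyWordInv gN (comp gN yN)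

theorem classOK_true : classOK = true := by decide +kernel

/-- Places of the elements of the Sylow subgroup also in its conjugate. -/
noncomputable def coreIdx : List ℕ :=
  (List.range 256).filter fun i => elemsP.contains (comp (comp (wImg kInvWord) (eN i)) (wImg kWord))

/-- The stabiliser of the fixed vector has the semilinear involution in its largest normal 2-subgroup. -/
noncomputable def coreOK : Bool :=
  Nat.blt rFix 4096 && qN rFix && !(rootR rFix) && !(Nat.beq rFix 0) &&
    (elemsP.all fun g => Nat.beq (apL g rFix) rFix) && Nat.beq (apL (wImg kWord) rFix) rFix &&
    (comp (wImg kInvWord) (wImg kWord) == idL) && Nat.ble coreIdx.length 32 && coreIdx.contains gI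

theorem coreOK_true : coreOK = true := by decide +kernel

end Cfsg.Agent.JFourType.Mat.Split
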