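/-! Machine-generated data for a complement to the elementary abelian subgroup of order `2^11` in a
Sylow 2-subgroup: a subgroup of order 16 of the semilinear group, and the singular space it preserves. -/

set_option autoImplicit false
set_option maxRecDepth 100000

namespace Cfsg.Agent.JFourType.Mat.SplitData

/-- the semilinear involution among the elements of the Sylow subgroup -/
noncomputable def gI : Nat := 45

/-- the first linear involution -/
noncomputable def xI : Nat := 106

/-- the second linear involution -/
noncomputable def yI : Nat := 167

/-- the vector fixed by the Sylow subgroup -/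
noncomputable def rFix : Nat := 640

/-- an element fixing it -/
noncomputable def kWord : List Nat := [0, 5, 1, 5, 3, 0, 0]

/-- its inverse -/
noncomputable def kInvWord : List Nat := [1, 1, 2, 4, 0, 4, 1]

/-- conjugating to the first linear involution -/
noncomputable def xWord : List Nat := [0, 4, 1, 4, 4, 0]

/-- its inverse -/
noncomputable def xWordInv : List Nat := [1, 5, 5, 0, 5, 1]

/-- conjugating to the second -/
noncomputable def yWord : List Nat := [0, 4, 1, 2, 2]

/-- its inverse -/
noncomputable def yWordInv : List Nat := [3, 3, 0, 5, 1]

/-- conjugating to the square of their product -/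
noncomputable def sWord : List Nat := [1, 5, 0, 5, 1, 3, 0]

/-- its inverse -/
noncomputable def sWordInv : List Nat := [1, 2, 0, 4, 1, 4, 0]

/-- conjugating to the product with the first -/
noncomputable def gxWord : List Nat := [3, 0]

/-- its inverse -/
noncomputable def gxWordInv : List Nat := [1, 2]

/-- conjugating to the product with the second -/
noncomputable def gyWord : List Nat := [1, 5, 0, 4, 1]

/-- its inverse -/
noncomputable def gyWordInv : List Nat := [0, 5, 1, 4, 0]

/-- the singular space -/
noncomputable def wList : List Nat := [0, 89, 174, 247, 317, 356, 403, 458, 534, 591, 696, 737, 811, 882, 901, 988, 1055, 1094, 1201, 1256, 1314, 1403, 1420, 1493, 1545, 1616, 1703, 1790, 1844, 1901, 1946, 1987, 2085, 2172, 2187, 2258, 2328, 2369, 2486, 2543, 2611, 2666, 2717, 2756, 2830, 2903, 2976, 3065, 3130, 3171, 3220, 3277, 3335, 3422, 3497, 3568, 3628, 3701, 3714, 3803, 3857, 3912, 4031, 4070]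

end Cfsg.Agent.JFourType.Mat.SplitData
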