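import Cfsg.Agent.JFourType.Mat.SplitLift
import Cfsg.Agent.JFourType.Mat.SplitCert
import Cfsg.Agent.LargeExtra.Pair

/-!
A conjugate of the involution in the extraspecial group, with short vector, supplies an involution
above the chosen semilinear element.
-/

set_option autoImplicit false
set_option maxRecDepth 100000

namespace Cfsg.Agent.JFourType.Mat.Split

open Cfsg
open Cfsg.Agent.GFour25 Cfsg.Agent.CosetCert
open Cfsg.Agent.SporB.FischerU (Vec vecN enc vecN_enc enc_lt)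
open Cfsg.Agent.LargeFischer (IsSemi semiU)
open Cfsg.Agent.LargeFischer.Thompson
open Cfsg.Agent.TTClass
open Cfsg.Agent.LargeExtra (CentralInvolution Setting)
open Cfsg.Agent.JFourType
open Data SplitData

theorem core_facts : rFix < 4096 ∧ qN rFix = true ∧ rootR rFix = false ∧ rFix ≠ 0 ∧
    (∀ g ∈ elemsP, apL g rFix = rFix) ∧ apL (wImg kWord) rFix = rFix ∧
    comp (wImg kInvWord) (wImg kWord) = idL ∧ coreIdx.length ≤ 32 ∧ gI ∈ coreIdx := by
  have h := coreOK_true
  simp only [coreOK, Bool.and_eq_true, Bool.not_eq_true', beq_iff_eq, List.all_eq_true,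
    List.contains_iff_mem] at h
  obtain ⟨⟨⟨⟨⟨⟨⟨⟨h1, h2⟩, h3⟩, h4⟩, h5⟩, h6⟩, h7⟩, h8⟩, h9⟩ := h
  exact ⟨Nat.blt_eq.mp h1, h2, h3, fun e => by rw [e] at h4; exact absurd h4 (by decide),
    fun g hg => Nat.eq_of_beq_eq_true (h5 g hg), Nat.eq_of_beq_eq_true h6, h7,
    Nat.le_of_ble_eq_true h8, h9⟩

theorem kWord_normal : comp (wImg kWord) idL = wImg kWord := by decide +kernel

/-- The elements of the Sylow subgroup in the core of the stabiliser. -/
def coreSet : Set (Equiv.Perm Vec) := {σ | ∃ i ∈ coreIdx, Rep (eN i) σ}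

theorem coreSet_card : coreSet.ncard ≤ 32 := by
  classical
  have hsub : coreSet ⊆ ⋃ i ∈ coreIdx.toFinset, {σ | Rep (eN i) σ} := by
    rintro σ ⟨i, hi, hr⟩
    exact Set.mem_biUnion (List.mem_toFinset.2 hi) hr
  refine (Set.ncard_le_ncard hsub (Set.toFinite _)).trans ?_
  refine (Finset.set_ncard_biUnion_le _ _).trans ?_
  refine (Finset.sum_le_card_nsmul _ _ 1 fun i _ => ?_).trans ?_
  · rw [Set.ncard_le_one (Set.toFinite _)]
    exact fun a ha b hb => Rep.eq ha hb
  · rw [smul_eq_mul, mul_one]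
    exact (List.toFinset_card_le _).trans core_facts.2.2.2.2.2.2.2.1

/-- A 2-subgroup normal in the stabiliser of the fixed vector, of order at least 32, is the core. -/
theorem core_eq {R : Subgroup (Equiv.Perm Vec)} (hKR : K22 ≤ R) (hgR : gP ∈ R)
    (hfac : (Nat.card R).factorization 2 = 8) {Y : Subgroup (Equiv.Perm Vec)} (hYR : Y ≤ R)
    (hY2 : IsPGroup 2 Y) (h32 : 32 ≤ Nat.card Y)
    (hn : ∀ n ∈ R, n (vecN rFix) = vecN rFix → ∀ y ∈ Y, n * y * n⁻¹ ∈ Y) :
    (Y : Set (Equiv.Perm Vec)) = coreSet := by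
  haveI : Fact (Nat.Prime 2) := ⟨Nat.prime_two⟩
  obtain ⟨hlt, -, -, -, hfix, hkfix, hkinv, -, -⟩ := core_facts
  have hc := rep_gP.1
  have hle : candP gP ≤ R := candP_le ⟨hKR⟩ hgR
  have hP2 : IsPGroup 2 (candP gP) :=
    IsPGroup.of_card (n := 8) (by rw [card_candP candJ_ok hc]; norm_num)
  have hPfix : ∀ σ ∈ candP gP, σ (vecN rFix) = vecN rFix := fun σ hσ => by
    obtain ⟨g, hg, hr⟩ := mem_candP_rep candJ_ok hc hσ
    rw [hr.apply, enc_vecN hlt, hfix g hg]
  have hnorm : candP gP ≤ Subgroup.normalizer (Y : Set (Equiv.Perm Vec)) := fun σ hσ => by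
    refine Subgroup.mem_normalizer_iff.2 fun y => ⟨fun hy => hn σ (hle hσ) (hPfix σ hσ) y hy, fun hy => ?_⟩
    have := hn σ⁻¹ (hle (inv_mem hσ)) (hPfix _ (inv_mem hσ)) _ hy
    rwa [show σ⁻¹ * (σ * y * σ⁻¹) * σ⁻¹⁻¹ = y by group] at this
  have hsup : IsPGroup 2 ↥(candP gP ⊔ Y) := hP2.to_sup_of_normal_right' hY2 hnorm
  have hYP : Y ≤ candP gP := by
    obtain ⟨n, hn2⟩ := hsup.exists_card_eq
    have hd : 2 ^ n ∣ Nat.card R := hn2 ▸ Subgroup.card_dvd_of_le (sup_le hle hYR)
    rw [Nat.prime_two.pow_dvd_iff_le_factorization Nat.card_pos.ne', hfac] at hd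
    have h256 : Nat.card ↥(candP gP ⊔ Y) ≤ Nat.card (candP gP) := by
      rw [hn2, card_candP candJ_ok hc, show (256 : ℕ) = 2 ^ 8 by norm_num]
      exact Nat.pow_le_pow_right (by norm_num) hd
    exact le_sup_right.trans (Subgroup.eq_of_le_of_card_ge le_sup_left h256).ge
  refine Set.eq_of_subset_of_ncard_le (fun y hy => ?_)
    (coreSet_card.trans (h32.trans (le_of_eq (Nat.card_coe_set_eq _)))) (Set.toFinite _)
  obtain ⟨g, hg, hr⟩ := mem_candP_rep candJ_ok hc (hYP hy)
  obtain ⟨i, hi, rfl⟩ := exists_getD [] hg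
  have hi' : i < 256 := lt_of_lt_of_eq hi (par_facts candJ_ok).1
  refine ⟨i, List.mem_filter.2 ⟨List.mem_range.2 hi', ?_⟩, hr⟩
  set k := wPerm kWord with hk
  have hrk : Rep (wImg kWord) k := rep_word _
  have hki : Rep (wImg kInvWord) k⁻¹ := hrk.inv hkinv
  have hkf : k⁻¹ (vecN rFix) = vecN rFix := by
    rw [Equiv.Perm.inv_eq_iff_eq, hrk.apply, enc_vecN hlt, hkfix]
  have hm := hn k⁻¹ (inv_mem (hKR (word_mem _))) hkf y hy
  rw [inv_inv] at hm
  obtain ⟨g', hg', hr'⟩ := mem_candP_rep candJ_ok hc (hYP hm)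
  have e := ((hki.mul hr).mul hrk).list_eq hr' (comp_normal _ kWord_normal)
    ((normal_facts candJ_ok.normal_elems).2 g' hg').1
  rw [List.contains_iff_mem]
  show comp (comp (wImg kInvWord) (candJ.elems.getD i [])) (wImg kWord) ∈ elemsP
  rw [e]
  exact hg'

variable {G : Type*} [Group G] [Finite G] {z : G} {P : Subgroup G}

/-- The chosen semilinear element lifts to an involution. -/
theorem inv_gN (hJ : IsOfJankoFourTypeWith z P) (S : Invol.Setup z P) {g : G}
    (hgE : g * z * g⁻¹ ∈ twoCoreOfCentralizer z) (hne : g * z * g⁻¹ ≠ z)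
    (hshort : ∀ a : pCore 2 (Subgroup.centralizer ({z} : Set G)),
      ((a : Subgroup.centralizer ({z} : Set G)) : G) = g * z * g⁻¹ → ¬ IsRoot (S.psi a)) :
    ∃ σ ∈ S.rho.range, Rep gN σ ∧ Inv S σ := by
  classical
  haveI : Fact (Nat.Prime 2) := ⟨Nat.prime_two⟩
  obtain ⟨hz, hEx, hcardE, hself, -⟩ := id hJ
  set E := twoCoreOfCentralizer z with hE
  have hzE : z ∈ E := hself ⟨Subgroup.mem_centralizer_singleton_iff.2 rfl,
    Subgroup.mem_centralizer_iff.2 fun e he =>
      Subgroup.mem_centralizer_singleton_iff.1 (Subgroup.map_subtype_le _ he)⟩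
  have hcent : Subgroup.centralizer (E : Set G) ≤ E := fun x hx => hself
    ⟨Subgroup.mem_centralizer_singleton_iff.2 (Subgroup.mem_centralizer_iff.1 hx z hzE).symm, hx⟩
  obtain ⟨n, -, St⟩ := LargeExtra.exists_setting hz (E := E) rfl hEx hcent
  obtain rfl : n = 6 := by
    have h : 2 ^ 13 = 2 ^ (2 * n + 1) := hcardE.symm.trans St.card
    have := Nat.pow_right_injective (le_refl 2) h
    omega
  have hci := St.ci
  have hL2 : Subgroup.centralizer (E : Set G) = Subgroup.zpowers z := by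
    refine le_antisymm (fun x hx => ?_) (Subgroup.zpowers_le.2 fun q hq => hci.comm q hq)
    rcases hci.of_central x (hcent hx) (fun q hq => Subgroup.mem_centralizer_iff.1 hx q hq) with rfl | rfl
    · exact one_mem _
    · exact Subgroup.mem_zpowers _
  have hL3 : Subgroup.centralizer ({z} : Set G) ≤ Subgroup.normalizer (E : Set G) := fun c hc => by
    have hcz := Subgroup.mem_centralizer_singleton_iff.1 hc
    refine Subgroup.mem_normalizer_iff.2 fun e => ⟨St.norm c hcz e, fun he => ?_⟩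
    have := St.norm c⁻¹ (Subgroup.mem_centralizer_singleton_iff.1 (inv_mem hc)) _ he
    rwa [show c⁻¹ * (c * e * c⁻¹) * c⁻¹⁻¹ = e by group] at this
  -- move the vector
  obtain ⟨bC, hbQ, hbe⟩ := id hgE
  have hbe' : (bC : G) = g * z * g⁻¹ := hbe
  set w := S.psi ⟨bC, hbQ⟩ with hw
  have hb1 : g * z * g⁻¹ ≠ 1 := fun e => hci.ne_one (conj_eq_one_iff.1 e)
  have hw0 : w ≠ 0 := fun e => by
    rcases (S.D.psi_ker _).1 e with q | q
    · exact hb1 (hbe'.symm.trans (congrArg Subtype.val q))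
    · exact hne (hbe'.symm.trans (congrArg Subtype.val q))
  have hwq : UnitF4.H w w = 0 := (S.D.psi_norm _).2 (Subtype.ext (Subtype.ext (by
    show (bC : G) * bC = 1
    rw [hbe', show g * z * g⁻¹ * (g * z * g⁻¹) = g * (z * z) * g⁻¹ by group, hci.sq]
    group)))
  obtain ⟨hlt, hq, hnr, hr0, -⟩ := core_facts
  have hrv0 : vecN rFix ≠ 0 := fun e => hr0 (by rw [← enc_vecN hlt, e, enc_zero'])
  have hrq : UnitF4.H (vecN rFix) (vecN rFix) = 0 := (qN_enc _).1 (by rwa [enc_vecN hlt])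
  have hrr : ¬ IsRoot (vecN rFix) := by rw [IsRoot, enc_vecN hlt, hnr]; exact Bool.false_ne_true
  obtain ⟨k, hk, hkw⟩ := ((orbit_cases hw0 hwq).resolve_left fun h => hshort _ hbe' h.1).2
  obtain ⟨k', hk', hkr⟩ := ((orbit_cases hrv0 hrq).resolve_left fun h => hrr h.1).2
  have hR22 : R22 ≤ S.rho.range := R22_le S.K22_le S.gP_mem
  obtain ⟨h, hh⟩ := mul_mem (inv_mem (hR22 hk')) (hR22 hk)
  have hhw : S.rho h w = vecN rFix := by
    rw [hh, Equiv.Perm.mul_apply, hkw, Equiv.Perm.inv_eq_iff_eq, hkr]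
  haveI hQn : (pCore 2 (Subgroup.centralizer ({z} : Set G))).Normal := inferInstance
  set b1C := h * bC * h⁻¹ with hb1C
  have hb1Q : b1C ∈ pCore 2 (Subgroup.centralizer ({z} : Set G)) := hQn.conj_mem _ hbQ h
  have hpsi : S.psi ⟨b1C, hb1Q⟩ = vecN rFix := (S.D.psi_conj h ⟨bC, hbQ⟩).trans hhw
  set g1 : G := (h : G) * g with hg1
  set b := g1 * z * g1⁻¹ with hbdef
  have hbC : (b1C : G) = b := by
    simp only [hb1C, hbdef, hg1, Subgroup.coe_mul, Subgroup.coe_inv, hbe']
    group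
  have hbE : b ∈ E := ⟨b1C, hb1Q, hbC⟩
  have hzh : (h : G) * z * (h : G)⁻¹ = z := by
    rw [Subgroup.mem_centralizer_singleton_iff.1 h.2, mul_inv_cancel_right]
  have hbz : b ≠ z := fun e => hne (by
    calc g * z * g⁻¹ = (h : G)⁻¹ * b * (h : G) := by rw [hbdef, hg1]; group
      _ = (h : G)⁻¹ * z * (h : G) := congrArg (fun x => (h : G)⁻¹ * x * (h : G)) e
      _ = z := by rw [mul_assoc, ← Subgroup.mem_centralizer_singleton_iff.1 h.2, inv_mul_cancel_left])
  have hzE' := LargeExtra.mem_conj_of_conj_mem hci hL2 hL3 (w := 6) (by norm_num) St.card hbE hbz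
  have h' := hci.conj g1
  set E' := E.map (MulAut.conj g1).toMonoidHom with hE'
  set K := E'.comap (Subgroup.centralizer ({z} : Set G)).subtype with hK
  -- its order
  have hE'c : Nat.card E' = 2 ^ 13 := by
    rw [hE', Subgroup.card_map_of_injective (MulAut.conj g1).injective, hcardE]
  have hKc : 4096 ≤ Nat.card K := by
    obtain ⟨q, hq, hqz⟩ := h'.exists_swap hzE' hci.ne_one (Ne.symm hbz)
    set KG := K.map (Subgroup.centralizer ({z} : Set G)).subtype with hKG
    have hmem : ∀ x ∈ E', x * z = z * x → x ∈ KG := fun x hx hxz =>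
      ⟨⟨x, Subgroup.mem_centralizer_singleton_iff.2 hxz⟩, hx, rfl⟩
    have hsub : (E' : Set G) ⊆ (KG : Set G) ∪ (fun x => q * x) '' (KG : Set G) := by
      intro x hx
      by_cases hxz : x * z = z * x
      · exact Or.inl (hmem x hx hxz)
      · refine Or.inr ⟨q⁻¹ * x, hmem _ (mul_mem (inv_mem hq) hx) ?_, mul_inv_cancel_left q x⟩
        exact h'.conj_ratio hzE' hq hx hqz fun e => hxz (mul_inv_eq_iff_eq_mul.1 e)
    have h2 := (Set.ncard_le_ncard hsub (Set.toFinite _)).trans (Set.ncard_union_le _ _)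
    rw [Set.ncard_image_of_injective _ (mul_right_injective q), ← Nat.card_coe_set_eq,
      ← Nat.card_coe_set_eq] at h2
    have h3 : Nat.card KG = Nat.card K :=
      Subgroup.card_map_of_injective (Subgroup.centralizer ({z} : Set G)).subtype_injective
    change Nat.card E' ≤ Nat.card KG + Nat.card KG at h2
    rw [hE'c, h3] at h2
    omega
  have hKE : ∀ {x}, x ∈ K → (x : G) ∈ E' := fun hx => hx
  have hK2 : IsPGroup 2 K :=
    (IsPGroup.of_card hE'c).comap_of_injective _ (Subgroup.centralizer ({z} : Set G)).subtype_injective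
  -- the intersection with the core is abelian
  set Dv := (K ⊓ pCore 2 (Subgroup.centralizer ({z} : Set G))) with hDv
  have hDcomm : ∀ x ∈ Dv, ∀ y ∈ Dv, x * y = y * x := by
    intro x hx y hy
    refine Subtype.ext ?_
    show (x : G) * y = y * x
    rcases hci.comm_mem (a := (x : G)) (b := (y : G)) ⟨x, hx.2, rfl⟩ ⟨y, hy.2, rfl⟩ with e | e
    · exact mul_inv_eq_iff_eq_mul.1 (mul_inv_eq_one.1 e)
    · rcases h'.comm_mem (hKE hx.1) (hKE hy.1) with e' | e'
      · exact mul_inv_eq_iff_eq_mul.1 (mul_inv_eq_one.1 e')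
      · exact absurd (e'.symm.trans e) hbz
  have hD128 : Nat.card Dv ≤ 128 := by
    rw [← Nat.card_congr (Subgroup.subgroupOfEquivOfLe (inf_le_right : Dv ≤ _)).toEquiv]
    exact (S.D.abelian_le _ ⟨⟨fun u v => Subtype.ext (Subtype.ext
      (hDcomm _ (Subgroup.mem_subgroupOf.1 u.2) _ (Subgroup.mem_subgroupOf.1 v.2)))⟩⟩).trans (by norm_num)
  have hsplit := S.D.card_split K
  set Y := K.map S.rho with hY
  have h32 : 32 ≤ Nat.card Y := by
    change Nat.card K = Nat.card Y * Nat.card Dv at hsplit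
    nlinarith [Nat.mul_le_mul_left (Nat.card Y) hD128]
  -- normality in the stabiliser
  have hnorm : ∀ n ∈ S.rho.range, n (vecN rFix) = vecN rFix → ∀ y ∈ Y, n * y * n⁻¹ ∈ Y := by
    rintro _ ⟨m, rfl⟩ hfix _ ⟨y, hy, rfl⟩
    obtain ⟨m', hm', hm'b⟩ : ∃ m', S.rho m' = S.rho m ∧ (m' : G) * b = b * (m' : G) := by
      have he := S.D.psi_conj m ⟨b1C, hb1Q⟩
      rw [hpsi, hfix] at he
      rcases S.D.eq_of_psi (he.trans hpsi.symm) with e | e
      · refine ⟨m, rfl, mul_inv_eq_iff_eq_mul.1 ?_⟩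
        rw [← hbC]
        exact congrArg Subtype.val e
      · obtain ⟨_, ⟨q, hq, rfl⟩, hqb⟩ := hci.exists_swap hbE (h'.ne_one) hbz
        refine ⟨q * m, by rw [map_mul, S.D.rho_q hq, one_mul], mul_inv_eq_iff_eq_mul.1 ?_⟩
        have e' : (m : G) * b * (m : G)⁻¹ = b * z := by rw [← hbC]; exact congrArg Subtype.val e
        have hqb' : (q : G) * b * (q : G)⁻¹ = b * z := hqb
        have hqz : (q : G) * z * (q : G)⁻¹ = z := by
          rw [Subgroup.mem_centralizer_singleton_iff.1 q.2, mul_inv_cancel_right]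
        show (q : G) * m * b * ((q : G) * m)⁻¹ = b
        calc (q : G) * m * b * ((q : G) * m)⁻¹ = (q : G) * ((m : G) * b * (m : G)⁻¹) * (q : G)⁻¹ := by group
          _ = ((q : G) * b * (q : G)⁻¹) * ((q : G) * z * (q : G)⁻¹) := by rw [e']; group
          _ = b := by rw [hqb', hqz, mul_assoc, hci.sq, mul_one]
    refine ⟨m' * y * m'⁻¹, ?_, by rw [map_mul, map_mul, map_inv, hm']⟩
    show (m' : G) * (y : G) * (m' : G)⁻¹ ∈ E'
    obtain ⟨q, hq, hqe⟩ := (hKE hy : (y : G) ∈ E.map (MulAut.conj g1).toMonoidHom)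
    have hqe' : g1 * q * g1⁻¹ = (y : G) := hqe
    have hd : g1⁻¹ * (m' : G) * g1 * z = z * (g1⁻¹ * (m' : G) * g1) := by
      calc g1⁻¹ * (m' : G) * g1 * z = g1⁻¹ * ((m' : G) * b) * g1 := by rw [hbdef]; group
        _ = z * (g1⁻¹ * (m' : G) * g1) := by rw [hm'b, hbdef]; group
    refine ⟨_, St.norm _ hd q hq, ?_⟩
    show g1 * (g1⁻¹ * (m' : G) * g1 * q * (g1⁻¹ * (m' : G) * g1)⁻¹) * g1⁻¹ = _
    rw [← hqe']
    group
  have hset := core_eq S.K22_le S.gP_mem S.fac (Subgroup.map_le_range _ _) (hK2.map _) h32 hnorm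
  have hD : 128 ≤ Nat.card Dv := by
    change Nat.card K = Nat.card Y * Nat.card Dv at hsplit
    have h1 : Nat.card Y ≤ 32 :=
      ((Nat.card_coe_set_eq _).trans (congrArg Set.ncard hset)).le.trans coreSet_card
    nlinarith [Nat.mul_le_mul_right (Nat.card Dv) h1]
  -- the element
  have hgI : gI < 256 := by
    have h := relOK_true
    simp only [relOK, Bool.and_eq_true] at h
    exact Nat.blt_eq.mp h.1.1.1.1.1.1.1.1.1
  have hsemi : semiOK true gN = true := by
    have h := relOK_true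
    simp only [relOK, Bool.and_eq_true] at h
    exact h.2
  obtain ⟨σ, hσP, hσ⟩ := elem_in_candP candJ_ok rep_gP.1 gI hgI
  obtain ⟨x, hx, hxr⟩ : σ ∈ Y := by
    show σ ∈ (Y : Set (Equiv.Perm Vec))
    rw [hset]
    exact ⟨gI, core_facts.2.2.2.2.2.2.2.2, hσ⟩
  have hsem : IsSemi true σ := isSemi_of_rep hσ hsemi
  refine ⟨σ, ⟨x, hxr⟩, hσ, ?_⟩
  suffices hi : ∃ x' : Subgroup.centralizer ({z} : Set G), x' * x' = 1 ∧ S.rho x' = σ by
    obtain ⟨x', h2, hr'⟩ := hi
    rw [← hr']
    exact inv_semi S hJ h2 (hr'.symm ▸ hsem)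
  rcases h'.sq_mem (hKE hx) with e | e
  · exact ⟨x, Subtype.ext e, hxr⟩
  obtain ⟨d, hd, hdx⟩ : ∃ d ∈ Dv, (x : G) * (d : G) * (x : G)⁻¹ = (d : G) * b := by
    by_contra hno
    push Not at hno
    have hall : ∀ d ∈ Dv, x * d = d * x := fun d hd => Subtype.ext (mul_inv_eq_iff_eq_mul.1
      ((h'.conj_cases (hKE hx) (hKE hd.1)).resolve_right (hno d hd)))
    -- a larger abelian subgroup
    set Ds := Subgroup.closure ((Dv : Set (Subgroup.centralizer ({z} : Set G))) ∪ {x}) with hDs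
    have hcl : ∀ u ∈ Ds, ∀ v ∈ Ds, u * v = v * u := by
      have h1 : ∀ u ∈ (Dv : Set (Subgroup.centralizer ({z} : Set G))) ∪ {x},
          ∀ v ∈ (Dv : Set (Subgroup.centralizer ({z} : Set G))) ∪ {x}, u * v = v * u := by
        rintro u (hu | rfl) v (hv | rfl)
        · exact hDcomm u hu v hv
        · exact (hall u hu).symm
        · exact hall v hv
        · rfl
      haveI := Subgroup.isMulCommutative_closure h1
      exact fun u hu v hv => congrArg Subtype.val
        (IsMulCommutative.is_comm.comm (⟨u, hu⟩ : Ds) ⟨v, hv⟩)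
    have hDK : Ds ≤ K := (Subgroup.closure_le _).2 (Set.union_subset (fun u hu => hu.1)
      (Set.singleton_subset_iff.2 hx))
    have hbig : Nat.card Dv < Nat.card Ds := by
      refine lt_of_le_of_ne (Subgroup.card_le_of_le fun u hu => Subgroup.subset_closure (Or.inl hu)) fun q => ?_
      have hxD : x ∈ Dv := (Subgroup.eq_of_le_of_card_ge
        (fun u hu => Subgroup.subset_closure (Or.inl hu)) q.ge).ge (Subgroup.subset_closure (Or.inr rfl))
      have hsem' := hsem.2.1 w4 (vecN 1)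
      rw [← hxr, S.D.rho_q hxD.2] at hsem'
      revert hsem'
      simp only [Equiv.Perm.one_apply]
      decide +kernel
    set Ds' := (Ds.map (Subgroup.centralizer ({z} : Set G)).subtype).subgroupOf E'
    have hle : Ds.map (Subgroup.centralizer ({z} : Set G)).subtype ≤ E' := by
      rintro _ ⟨u, hu, rfl⟩
      exact hKE (hDK hu)
    have hcard : Nat.card Ds' = Nat.card Ds := by
      rw [Nat.card_congr (Subgroup.subgroupOfEquivOfLe hle).toEquiv,
        Subgroup.card_map_of_injective (Subgroup.centralizer ({z} : Set G)).subtype_injective]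
    have hab := PGroup.extraspecial_card_abelian_le h'.extra (n := 6) (hE'c.trans (by norm_num))
      (A := Ds') ⟨⟨fun u v => Subtype.ext (Subtype.ext (by
        obtain ⟨u', hu', he⟩ := Subgroup.mem_subgroupOf.1 u.2
        obtain ⟨v', hv', hf⟩ := Subgroup.mem_subgroupOf.1 v.2
        show ((u : E') : G) * (v : E') = (v : E') * (u : E')
        rw [← he, ← hf, ← map_mul, ← map_mul, hcl u' hu' v' hv']))⟩⟩
    rw [hcard] at hab
    omega
  have hd2 : (d : G) * d = 1 := by
    rcases hci.sq_mem (a := (d : G)) ⟨d, hd.2, rfl⟩ with q | q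
    · exact q
    · rcases h'.sq_mem (hKE hd.1) with q' | q'
      · exact q'
      · exact absurd (q'.symm.trans q) hbz
  refine ⟨x * d, Subtype.ext ?_, by rw [map_mul, S.D.rho_q hd.2, mul_one, hxr]⟩
  show (x : G) * d * ((x : G) * d) = 1
  calc (x : G) * d * ((x : G) * d) = ((x : G) * d * (x : G)⁻¹) * ((x : G) * x) * d := by group
    _ = (d : G) * (b * b) * d := by rw [hdx, e, ← hbdef]; simp only [mul_assoc]
    _ = 1 := by rw [h'.sq, mul_one, hd2]

end Cfsg.Agent.JFourType.Mat.Split
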