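import Cfsg.Agent.JFourType.InvolClasses

/-!
Lifts to the normalizer of the subgroup of order three in the centralizer of the involution: an image
of order two all whose lifts there are involutions.
-/

set_option autoImplicit false

namespace Cfsg.Agent.JFourType.Mat.Split

open Cfsg
open Cfsg.Agent.GFour25
open Cfsg.Agent.SporB.FischerU (Vec)
open Cfsg.Agent.LargeFischer (IsSemi semiU twist)
open Cfsg.Agent.LargeFischer.Thompson
open Cfsg.Agent.TTClass
open Cfsg.Agent.JFourType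

variable {G : Type*} [Group G] [Finite G] {z : G} {P : Subgroup G}

/-- The involution in its centralizer. -/
abbrev zc (z : G) : Subgroup.centralizer ({z} : Set G) :=
  ⟨z, Subgroup.mem_centralizer_singleton_iff.2 rfl⟩

variable (S : Invol.Setup z P)

/-- The normalizer of the subgroup of order three. -/
def Lp : Subgroup (Subgroup.centralizer ({z} : Set G)) :=
  Subgroup.normalizer (Subgroup.zpowers S.p : Set (Subgroup.centralizer ({z} : Set G)))

/-- All lifts of the element in the normalizer are involutions. -/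
def Inv (σ : Equiv.Perm Vec) : Prop := ∀ h ∈ Lp S, S.rho h = σ → h * h = 1

theorem p_ord : orderOf S.p = 3 := by
  rw [← Subgroup.orderOf_coe]
  exact S.p_order

theorem p_rho : S.rho S.p = omP ∨ S.rho S.p = omP * omP := by
  obtain ⟨h0, h1⟩ := S.c_ne
  rcases f4_cases S.c with e | e | e | e
  · exact absurd e h0
  · exact absurd e h1
  · exact Or.inl (Equiv.ext fun v => by rw [S.p_apply, e, omP_apply])
  · refine Or.inr (Equiv.ext fun v => ?_)
    rw [S.p_apply, e, Equiv.Perm.mul_apply, omP_apply, omP_apply, smul_smul,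
      show (1 + w4 : F4) = w4 * w4 by decide]

theorem p_mem_Lp : S.p ∈ Lp S := Subgroup.le_normalizer (Subgroup.mem_zpowers _)

include S in
theorem zc_facts : (∀ h, h * zc z = zc z * h) ∧ zc z * zc z = 1 ∧ zc z ≠ 1 :=
  ⟨S.D.z_central, S.D.z_sq, S.D.z_ne⟩

theorem ker_cases (hJ : IsOfJankoFourTypeWith z P) {h : Subgroup.centralizer ({z} : Set G)}
    (hh : h ∈ Lp S) (h1 : S.rho h = 1) : h = 1 ∨ h = zc z := by
  obtain ⟨hz, -, -, -, -, hP3, hfix, -, -⟩ := hJ
  have hQ := S.D.mem_q h1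
  set c := h * S.p * h⁻¹ * S.p⁻¹ with hc
  have hc1 : c ∈ Subgroup.zpowers S.p :=
    mul_mem ((Subgroup.mem_normalizer_iff.1 hh _).1 (Subgroup.mem_zpowers _))
      (inv_mem (Subgroup.mem_zpowers _))
  have hc2 : c ∈ pCore 2 (Subgroup.centralizer ({z} : Set G)) := by
    rw [hc, show h * S.p * h⁻¹ * S.p⁻¹ = h * (S.p * h⁻¹ * S.p⁻¹) by group]
    exact mul_mem hQ ((inferInstance : (pCore 2 (Subgroup.centralizer ({z} : Set G))).Normal).conj_mem _
      (inv_mem hQ) S.p)
  have hd1 : orderOf c ∣ 3 := by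
    have := Subgroup.orderOf_dvd_natCard (Subgroup.zpowers S.p) hc1
    rwa [Nat.card_zpowers, p_ord S] at this
  have hd2 : orderOf c ∣ 8192 := by
    have := Subgroup.orderOf_dvd_natCard _ hc2
    rwa [S.D.card_q] at this
  have hce : c = 1 := orderOf_eq_one_iff.1 (Nat.eq_one_of_dvd_coprimes (by norm_num) hd1 hd2)
  have hcomm : h * S.p = S.p * h := mul_inv_eq_iff_eq_mul.1 (mul_inv_eq_one.1 hce)
  have hPz : P = Subgroup.zpowers (S.p : G) := (Subgroup.eq_of_le_of_card_ge
    (Subgroup.zpowers_le.2 S.p_mem) (by rw [hP3, Nat.card_zpowers, S.p_order])).symm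
  have hm : (h : G) ∈ twoCoreOfCentralizer z ⊓ Subgroup.centralizer (P : Set G) := by
    refine ⟨⟨h, hQ, rfl⟩, Subgroup.mem_centralizer_iff.2 fun x hx => ?_⟩
    rw [hPz] at hx
    obtain ⟨k, rfl⟩ := Subgroup.mem_zpowers_iff.1 hx
    exact ((show Commute (S.p : G) (h : G) from (congrArg Subtype.val hcomm).symm).zpow_left k).eq
  rw [hfix] at hm
  obtain ⟨k, hk⟩ := ((isOfFinOrder_of_finite z).mem_powers_iff_mem_zpowers).2 hm
  have hk' : z ^ k = (h : G) := hk
  rw [← pow_mod_orderOf, hz] at hk'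
  rcases Nat.mod_two_eq_zero_or_one k with e | e <;> rw [e] at hk'
  · exact Or.inl (Subtype.ext (hk'.symm.trans (pow_zero z)))
  · exact Or.inr (Subtype.ext (hk'.symm.trans (pow_one z)))

theorem sq_cases (hJ : IsOfJankoFourTypeWith z P) {h : Subgroup.centralizer ({z} : Set G)}
    (hh : h ∈ Lp S) {σ : Equiv.Perm Vec} (hσ : S.rho h = σ) (h2 : σ * σ = 1) :
    h * h = 1 ∨ h * h = zc z :=
  ker_cases S hJ (mul_mem hh hh) (by rw [map_mul, hσ, h2])

theorem inv_of_lift (hJ : IsOfJankoFourTypeWith z P) {h : Subgroup.centralizer ({z} : Set G)}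
    (hh : h ∈ Lp S) (h2 : h * h = 1) : Inv S (S.rho h) := by
  intro h' hh' he
  obtain ⟨zcen, zsq, -⟩ := zc_facts S
  rcases ker_cases S hJ (mul_mem hh' (inv_mem hh)) (by rw [map_mul, map_inv, he, mul_inv_cancel]) with e | e
  · rw [mul_inv_eq_one.1 e]
    exact h2
  · rw [mul_inv_eq_iff_eq_mul.1 e]
    calc zc z * h * (zc z * h) = zc z * (h * zc z) * h := by group
      _ = zc z * zc z * (h * h) := by rw [zcen h]; group
      _ = 1 := by rw [zsq, h2, one_mul]

/-- Every image has a lift normalizing the subgroup of order three. -/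
theorem exists_lift {σ : Equiv.Perm Vec} (hσ : σ ∈ S.rho.range) : ∃ h ∈ Lp S, S.rho h = σ := by
  haveI : Fact (Nat.Prime 3) := ⟨Nat.prime_three⟩
  obtain ⟨h, rfl⟩ := hσ
  set N0 := scal.comap S.rho with hN0
  have hQ0 : pCore 2 (Subgroup.centralizer ({z} : Set G)) ≤ N0 := fun q hq => by
    rw [hN0, Subgroup.mem_comap, S.D.rho_q hq]
    exact one_mem _
  have hscal : scal ≤ S.rho.range := Subgroup.zpowers_le.2 (S.K22_le omP_mem)
  have hne : omP ≠ 1 := fun e => by
    rcases p_rho S with q | q <;> rw [e] at q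
    · have h8 := Subgroup.orderOf_dvd_natCard _ (S.D.mem_q q)
      rw [p_ord S, S.D.card_q] at h8
      norm_num at h8
    · have h8 := Subgroup.orderOf_dvd_natCard _ (S.D.mem_q (q.trans (mul_one 1)))
      rw [p_ord S, S.D.card_q] at h8
      norm_num at h8
  have hcard : Nat.card N0 = 3 * 8192 := by
    rw [S.D.card_split N0, hN0, Subgroup.map_comap_eq, inf_eq_right.2 hscal,
      inf_eq_right.2 (hN0 ▸ hQ0), S.D.card_q, scal, Nat.card_zpowers,
      orderOf_eq_prime omP_pow_three hne]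
  have hpN : S.p ∈ N0 := by
    rw [hN0, Subgroup.mem_comap]
    rcases p_rho S with e | e <;> rw [e]
    · exact Subgroup.mem_zpowers _
    · exact mul_mem (Subgroup.mem_zpowers _) (Subgroup.mem_zpowers _)
  set p' := h * S.p * h⁻¹ with hp'
  have hpN' : p' ∈ N0 := by
    rw [hN0, Subgroup.mem_comap, hp', map_mul, map_mul, map_inv]
    obtain ⟨b, hb⟩ := S.semi h
    have key : ∀ v, (S.rho h * S.rho S.p * (S.rho h)⁻¹) v = twist b S.c • v := fun v => by
      rw [Equiv.Perm.mul_apply, Equiv.Perm.mul_apply, S.p_apply, hb.2.1, Invol.apply_inv]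
    obtain ⟨h0, h1⟩ := S.c_ne
    have hc : twist b S.c = w4 ∨ twist b S.c = 1 + w4 := by
      rcases f4_cases S.c with e | e | e | e
      · exact absurd e h0
      · exact absurd e h1
      all_goals rw [e]; cases b <;> decide
    rcases hc with e | e
    · rw [show S.rho h * S.rho S.p * (S.rho h)⁻¹ = omP from Equiv.ext fun v => by rw [key, e, omP_apply]]
      exact Subgroup.mem_zpowers _
    · rw [show S.rho h * S.rho S.p * (S.rho h)⁻¹ = omP * omP from Equiv.ext fun v => by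
        rw [key, e, Equiv.Perm.mul_apply, omP_apply, omP_apply, smul_smul,
          show (1 + w4 : F4) = w4 * w4 by decide]]
      exact mul_mem (Subgroup.mem_zpowers _) (Subgroup.mem_zpowers _)
  have hfac : 3 ^ (Nat.card N0).factorization 3 = 3 := by
    rw [hcard, Nat.factorization_mul (by norm_num) (by norm_num), Finsupp.add_apply,
      Nat.Prime.factorization_self Nat.prime_three,
      Nat.factorization_eq_zero_of_not_dvd (show ¬ 3 ∣ 8192 by norm_num)]
    norm_num
  have hz3 : ∀ q : N0, orderOf (q : Subgroup.centralizer ({z} : Set G)) = 3 →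
      Nat.card (Subgroup.zpowers q) = 3 ^ (Nat.card N0).factorization 3 := fun q hq => by
    rw [hfac, Nat.card_zpowers, ← Subgroup.orderOf_coe, hq]
  have ho' : orderOf p' = 3 := by
    rw [hp', ← MulAut.conj_apply, MulEquiv.orderOf_eq, p_ord S]
  obtain ⟨e, he⟩ := MulAction.exists_smul_eq N0
    (Sylow.ofCard (Subgroup.zpowers (⟨p', hpN'⟩ : N0)) (hz3 _ ho'))
    (Sylow.ofCard (Subgroup.zpowers (⟨S.p, hpN⟩ : N0)) (hz3 _ (p_ord S)))
  -- the conjugate lies in the subgroup
  have hmem : (e : Subgroup.centralizer ({z} : Set G)) * p' * (e : Subgroup.centralizer ({z} : Set G))⁻¹ ∈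
      Subgroup.zpowers S.p := by
    have h1 : (⟨p', hpN'⟩ : N0) ∈ Subgroup.zpowers (⟨p', hpN'⟩ : N0) := Subgroup.mem_zpowers _
    have h2 : e * ⟨p', hpN'⟩ * e⁻¹ ∈ ((Sylow.ofCard (Subgroup.zpowers (⟨S.p, hpN⟩ : N0))
        (hz3 _ (p_ord S)) : Sylow 3 N0) : Subgroup N0) := by
      rw [← he, Sylow.smul_def, Sylow.pointwise_smul_def]
      exact ⟨_, h1, rfl⟩
    obtain ⟨k, hk⟩ := Subgroup.mem_zpowers_iff.1 h2
    exact ⟨k, by simpa using congrArg Subtype.val hk⟩
  -- correct the image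
  obtain ⟨i, hi⟩ : ∃ i : ℤ, S.rho (S.p ^ i) = S.rho (e : Subgroup.centralizer ({z} : Set G)) := by
    have hsub : scal ≤ (Subgroup.zpowers S.p).map S.rho := by
      refine Subgroup.zpowers_le.2 ?_
      rcases p_rho S with q | q
      · exact ⟨S.p, Subgroup.mem_zpowers _, q⟩
      · refine ⟨S.p * S.p, mul_mem (Subgroup.mem_zpowers _) (Subgroup.mem_zpowers _), ?_⟩
        rw [map_mul, q, show omP * omP * (omP * omP) = omP ^ 3 * omP by rw [pow_succ, pow_two]; simp only [mul_assoc], omP_pow_three, one_mul]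
    obtain ⟨y, hy, hye⟩ := hsub e.2
    obtain ⟨i, rfl⟩ := Subgroup.mem_zpowers_iff.1 hy
    exact ⟨i, hye⟩
  refine ⟨(S.p ^ i)⁻¹ * e * h, ?_, by
    rw [map_mul, map_mul, map_inv, hi, inv_mul_cancel, one_mul]⟩
  have hz : ((S.p ^ i)⁻¹ * e * h) * S.p * ((S.p ^ i)⁻¹ * e * h)⁻¹ ∈ Subgroup.zpowers S.p := by
    rw [show ((S.p ^ i)⁻¹ * e * h) * S.p * ((S.p ^ i)⁻¹ * e * h)⁻¹ =
      (S.p ^ i)⁻¹ * ((e : Subgroup.centralizer ({z} : Set G)) * p' * (e : Subgroup.centralizer ({z} : Set G))⁻¹) *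
        S.p ^ i by rw [hp']; group]
    exact mul_mem (mul_mem (inv_mem (Subgroup.zpow_mem _ (Subgroup.mem_zpowers _) i)) hmem)
      (Subgroup.zpow_mem _ (Subgroup.mem_zpowers _) i)
  rw [Lp, Subgroup.mem_normalizer_iff_map_conj_eq]
  refine Subgroup.eq_of_le_of_card_ge ?_
    (by rw [Subgroup.card_map_of_injective (MulAut.conj _).injective])
  rw [MonoidHom.map_zpowers]
  exact Subgroup.zpowers_le.2 hz

theorem inv_conj (hJ : IsOfJankoFourTypeWith z P) {k σ : Equiv.Perm Vec} (hk : k ∈ S.rho.range)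
    (hσ : σ ∈ S.rho.range) (hi : Inv S σ) : Inv S (k * σ * k⁻¹) := by
  obtain ⟨l, hl, rfl⟩ := exists_lift S hk
  obtain ⟨h, hh, rfl⟩ := exists_lift S hσ
  have h2 := hi h hh rfl
  have hm : l * h * l⁻¹ ∈ Lp S := mul_mem (mul_mem hl hh) (inv_mem hl)
  have := inv_of_lift S hJ hm (by
    rw [show l * h * l⁻¹ * (l * h * l⁻¹) = l * (h * h) * l⁻¹ by group, h2]; group)
  rwa [map_mul, map_mul, map_inv] at this

theorem p_conj_K {x : Subgroup.centralizer ({z} : Set G)} (hx : x ∈ S.D.K S.Mo) :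
    S.p * x * S.p⁻¹ ∈ S.D.K S.Mo := by
  refine S.D.conj_K S.Mo (fun u hu => ?_) (fun a ha => ?_) hx
  · rw [S.p_apply]
    exact Invol.smul_mem_uSet hu _
  · have hc : a * S.rho S.p = S.rho S.p * a := by
      have ho : a * omP = omP * a := aGrp_om ha
      rcases p_rho S with e | e <;> rw [e]
      · exact ho
      · rw [← mul_assoc, ho, mul_assoc, ho, mul_assoc]
    rw [← hc, mul_inv_cancel_right]
    exact ha

/-- Elements of the distinguished subgroup. -/
theorem inv_aGrp (hJ : IsOfJankoFourTypeWith z P) {a : Equiv.Perm Vec} (ha : a ∈ aGrp) : Inv S a := by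
  obtain ⟨h0, hh0, hr⟩ := S.D.exists_fix S.Mo (show a ∈ S.Mo.A from ha)
  set h1 := S.p * h0 * S.p⁻¹ with e1
  set h2 := S.p * h1 * S.p⁻¹ with e2
  have m1 : h1 ∈ S.D.K S.Mo := p_conj_K S hh0
  have m2 : h2 ∈ S.D.K S.Mo := p_conj_K S m1
  have hcm : ∀ x ∈ S.D.K S.Mo, ∀ y ∈ S.D.K S.Mo, x * y = y * x := fun x hx y hy =>
    comm_of_sq (S.D.K_sq S.Mo x hx) (S.D.K_sq S.Mo y hy) (S.D.K_sq S.Mo _ (mul_mem hx hy))
  have hp3 : S.p * h2 * S.p⁻¹ = h0 := by
    have h3 : S.p ^ 3 = 1 := by rw [← p_ord S, pow_orderOf_eq_one]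
    calc S.p * h2 * S.p⁻¹ = S.p ^ 3 * h0 * (S.p ^ 3)⁻¹ := by rw [e2, e1, pow_succ, pow_two]; group
      _ = h0 := by rw [h3]; group
  have hfix : S.p * (h0 * h1 * h2) * S.p⁻¹ = h0 * h1 * h2 := by
    calc S.p * (h0 * h1 * h2) * S.p⁻¹
        = (S.p * h0 * S.p⁻¹) * (S.p * h1 * S.p⁻¹) * (S.p * h2 * S.p⁻¹) := by group
      _ = h1 * h2 * h0 := by rw [hp3, ← e2, ← e1]
      _ = h0 * h1 * h2 := by rw [hcm _ (mul_mem m1 m2) _ hh0]; exact (mul_assoc h0 h1 h2).symm
  have hL : h0 * h1 * h2 ∈ Lp S := by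
    rw [Lp, Subgroup.mem_normalizer_iff_map_conj_eq]
    refine Subgroup.eq_of_le_of_card_ge ?_
      (by rw [Subgroup.card_map_of_injective (MulAut.conj _).injective])
    rw [MonoidHom.map_zpowers]
    refine Subgroup.zpowers_le.2 ?_
    have hc : S.p * (h0 * h1 * h2) = h0 * h1 * h2 * S.p := mul_inv_eq_iff_eq_mul.1 hfix
    show h0 * h1 * h2 * S.p * (h0 * h1 * h2)⁻¹ ∈ Subgroup.zpowers S.p
    rw [← hc, mul_inv_cancel_right]
    exact Subgroup.mem_zpowers _
  have := inv_of_lift S hJ hL (S.D.K_sq S.Mo _ (mul_mem (mul_mem hh0 m1) m2))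
  have hr1 : S.rho h1 = a := by
    rw [e1, map_mul, map_mul, map_inv, hr]
    rcases p_rho S with e | e <;> rw [e]
    · rw [← aGrp_om ha, mul_inv_cancel_right]
    · rw [show omP * omP * a = a * (omP * omP) by
        rw [mul_assoc omP, ← aGrp_om ha, ← mul_assoc, ← aGrp_om ha, mul_assoc], mul_inv_cancel_right]
  have hr2 : S.rho h2 = a := by
    rw [e2, map_mul, map_mul, map_inv, hr1]
    rcases p_rho S with e | e <;> rw [e]
    · rw [← aGrp_om ha, mul_inv_cancel_right]
    · rw [show omP * omP * a = a * (omP * omP) by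
        rw [mul_assoc omP, ← aGrp_om ha, ← mul_assoc, ← aGrp_om ha, mul_assoc], mul_inv_cancel_right]
  rwa [map_mul, map_mul, hr, hr1, hr2, aGrp_sq ha, one_mul] at this

/-- A semilinear image of an involution. -/
theorem inv_semi (hJ : IsOfJankoFourTypeWith z P) {x : Subgroup.centralizer ({z} : Set G)}
    (hx : x * x = 1) (hs : IsSemi true (S.rho x)) : Inv S (S.rho x) := by
  intro h hh he
  obtain ⟨zcen, zsq, -⟩ := zc_facts S
  have hsq := sq_cases S hJ hh he (by rw [← map_mul, hx, map_one])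
  have hxi : x⁻¹ = x := inv_eq_of_mul_eq_one_right hx
  set Q := pCore 2 (Subgroup.centralizer ({z} : Set G))
  haveI hn : Q.Normal := inferInstance
  have hm : x⁻¹ * h ∈ Q := S.D.mem_q (by rw [map_mul, map_inv, he, inv_mul_cancel])
  set e : Q := ⟨x⁻¹ * h, hm⟩
  have hxe : h = x * (e : Subgroup.centralizer ({z} : Set G)) := by
    show h = x * (x⁻¹ * h)
    rw [mul_inv_cancel_left]
  set v := S.psi e with hv
  -- the vector is fixed
  set e' : Q := ⟨x * e * x⁻¹, hn.conj_mem _ e.2 x⟩ with he'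
  have hfix : S.rho x v = v := by
    have hcast : ((e' * e : Q) : Subgroup.centralizer ({z} : Set G)) = h * h := by
      show x * (e : Subgroup.centralizer ({z} : Set G)) * x⁻¹ * e = h * h
      rw [hxe, hxi]
      group
    have h0 : S.psi (e' * e) = 0 := by
      rw [S.D.psi_ker, hcast]
      exact hsq
    rw [S.D.psi_mul, S.D.psi_conj] at h0
    calc S.rho x v = S.rho x v + (v + v) := by rw [vec_self, add_zero]
      _ = v := by rw [← add_assoc, h0, zero_add]
  obtain ⟨a, ha⟩ := S.D.psi_surj (w4 • v)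
  set a' : Q := ⟨x * a * x⁻¹, hn.conj_mem _ a.2 x⟩ with ha'
  have hsum : S.psi (a' * a) = S.psi e := by
    rw [S.D.psi_mul, S.D.psi_conj, ha, hs.2.1, hfix, ← add_smul,
      show twist true w4 + w4 = 1 by decide, one_smul]
  -- squares of elements of the core
  have haa : (a : Subgroup.centralizer ({z} : Set G)) * a = 1 ∨ (a : Subgroup.centralizer ({z} : Set G)) * a = zc z :=
    (S.D.psi_ker (a * a)).1 (by rw [S.D.psi_mul, vec_self])
  have hc : ∀ c, (c = 1 ∨ c = zc z) → (∀ g : Subgroup.centralizer ({z} : Set G), g * c = c * g) ∧ c * c = 1 := by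
    rintro c (rfl | rfl)
    · exact ⟨fun g => by rw [mul_one, one_mul], one_mul 1⟩
    · exact ⟨zcen, zsq⟩
  obtain ⟨acen, asq⟩ := hc _ haa
  obtain ⟨c, hcc, hec⟩ : ∃ c, (c = 1 ∨ c = zc z) ∧
      (e : Subgroup.centralizer ({z} : Set G)) = x * a * x⁻¹ * a * c := by
    rcases S.D.eq_of_psi hsum.symm with q | q
    · exact ⟨1, Or.inl rfl, by rw [mul_one]; exact q⟩
    · exact ⟨zc z, Or.inr rfl, q⟩
  obtain ⟨ccen, csq⟩ := hc c hcc
  rw [hxe, hec, hxi]
  set A : Subgroup.centralizer ({z} : Set G) := (a : Subgroup.centralizer ({z} : Set G))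
  calc x * (x * A * x * A * c) * (x * (x * A * x * A * c))
      = x * x * A * x * A * (c * (x * x)) * A * x * A * c := by group
    _ = A * x * A * (c * A) * x * A * c := by rw [hx]; group
    _ = A * x * (A * A) * (c * x) * A * c := by rw [← ccen A]; group
    _ = A * (x * (A * A)) * x * c * A * c := by rw [← ccen x]; group
    _ = A * A * A * (x * x) * c * A * c := by rw [acen x]; group
    _ = A * A * A * (c * A) * c := by rw [hx]; group
    _ = (A * A) * (A * A) * (c * c) := by rw [← ccen A]; group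
    _ = 1 := by rw [asq, csq, one_mul]

end Cfsg.Agent.JFourType.Mat.Split
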