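import Cfsg.Agent.JFourType.Mat.SplitInvol
import Cfsg.Agent.JFourType.Mat.Root

/-!
The two descriptions of the centraliser of the involution, and three involutions above generators of
a subgroup of order sixteen.
-/

set_option autoImplicit false
set_option maxRecDepth 100000

namespace Cfsg.Agent.JFourType.Mat.Split

open Cfsg
open Cfsg.Agent.GFour25 Cfsg.Agent.CosetCert
open Cfsg.Agent.SporB.FischerU (Vec vecN enc vecN_enc enc_lt)
open Cfsg.Agent.LargeFischer (IsSemi semiU)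
open Cfsg.Agent.LargeFischer.Thompson
open Cfsg.Agent.TTClass
open Cfsg.Agent.LargeExtra (CentralInvolution Setting)
open Cfsg.Agent.JFourType
open Data SplitData

variable {G : Type*} [Group G] [Finite G] {z : G} {P : Subgroup G}

theorem card_range (hJ : IsOfJankoFourTypeWith z P) (S : Invol.Setup z P) :
    Nat.card S.rho.range = 2661120 := by
  obtain ⟨rho, psi, M, q, D, -, -, -, -, -, -, -, -, -, hcR⟩ := exists_frame hJ
  have h1 := D.card_split ⊤
  have h2 := S.D.card_split ⊤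
  rw [Subgroup.card_top, top_inf_eq, D.card_q, ← MonoidHom.range_eq_map, hcR] at h1
  rw [Subgroup.card_top, top_inf_eq, S.D.card_q, ← MonoidHom.range_eq_map, h1] at h2
  omega

theorem range_eq (hJ : IsOfJankoFourTypeWith z P) (S : Invol.Setup z P) : S.rho.range = R22 := by
  refine (Subgroup.eq_of_le_of_card_ge (R22_le S.K22_le S.gP_mem) ?_).symm
  obtain ⟨k, hk⟩ := Subgroup.card_dvd_of_le K22_le_R22
  have hpos : 0 < Nat.card R22 := Nat.card_pos
  have h2 : 2 ≤ k := by
    by_contra hc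
    push Not at hc
    have : k = 1 := by
      rcases k with _ | _ | k <;> simp_all
    rw [this, mul_one] at hk
    exact gP_not_mem ((Subgroup.eq_of_le_of_card_ge K22_le_R22 hk.le).ge gP_mem_R22)
  rw [card_range hJ S, hk]
  nlinarith [card_K22_ge]

/-- The other description, with the same action. -/
theorem exists_mat [IsSimpleGroup G] (hJ : IsOfJankoFourTypeWith z P) (S : Invol.Setup z P) :
    ∃ T : Setup z (pCore 2 (Subgroup.centralizer ({z} : Set G))), T.rho = S.rho ∧ T.psi = S.psi ∧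
      T.K = S.D.K S.Mo := by
  have hR := range_eq hJ S
  obtain ⟨g', hgE, hgne⟩ := exists_fused hJ
  obtain ⟨hz, hEx, hcardE, hself, -⟩ := id hJ
  have hzE : z ∈ twoCoreOfCentralizer z := by
    refine hself ⟨Subgroup.mem_centralizer_singleton_iff.2 rfl, Subgroup.mem_centralizer_iff.2 ?_⟩
    intro e he
    obtain ⟨y, -, rfl⟩ := he
    exact Subgroup.mem_centralizer_singleton_iff.1 y.2
  have hcent : Subgroup.centralizer (twoCoreOfCentralizer z : Set G) ≤ twoCoreOfCentralizer z := fun g hg =>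
    hself ⟨Subgroup.mem_centralizer_singleton_iff.2 (Subgroup.mem_centralizer_iff.1 hg z hzE).symm, hg⟩
  obtain ⟨n, -, hS⟩ := LargeExtra.exists_setting hz rfl hEx hcent
  obtain rfl : n = 6 := by
    have h : 2 ^ 13 = 2 ^ (2 * n + 1) := hcardE.symm.trans hS.card
    have := Nat.pow_right_injective (le_refl 2) h
    omega
  have hB : LargeFischer.Base z (pCore 2 (Subgroup.centralizer ({z} : Set G))) := by
    refine ⟨hS.ci, le_antisymm (fun x hx => ?_) (Subgroup.zpowers_le.2 fun e he => hS.ci.comm e he),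
      fun h hh => Subgroup.mem_normalizer_iff.2 fun e => ⟨fun he => ?_, fun he => ?_⟩, hcardE⟩
    · rcases hS.ci.of_central x (hcent hx) (fun e he => Subgroup.mem_centralizer_iff.1 hx e he) with e | e
      · exact e ▸ one_mem _
      · exact e ▸ Subgroup.mem_zpowers z
    · exact hS.norm h (Subgroup.mem_centralizer_singleton_iff.1 hh) e he
    · have := hS.norm h⁻¹ (Subgroup.mem_centralizer_singleton_iff.1 (inv_mem hh)) _ he
      rwa [show h⁻¹ * (h * e * h⁻¹) * h⁻¹⁻¹ = e by group] at this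
  obtain ⟨s, hsQ, hse⟩ := hgE
  have hc : Nat.card R22 = 2661120 := hR ▸ card_range hJ S
  exact ⟨{ rho := S.rho, psi := S.psi, range := hR, card_range := hc, B := hB,
           other := ⟨g', ⟨s, hsQ⟩, hse.symm, fun e => hgne (hse.symm.trans e)⟩, zc := _, zc_coe := rfl,
           D := S.D, M := S.Mo, P := fine ⟨S.K22_le⟩ S.gP_mem, M_U := rfl, M_A := rfl, M_P := rfl,
           small := small_of_card hc }, rfl, rfl, rfl⟩

/-- An element of the Sylow subgroup with the given place. -/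
theorem exists_eN (S : Invol.Setup z P) {i : ℕ} (hi : i < 256) :
    ∃ σ ∈ S.rho.range, Rep (eN i) σ := by
  obtain ⟨σ, hσ, hr⟩ := elem_in_candP candJ_ok rep_gP.1 i hi
  exact ⟨σ, candP_le ⟨S.K22_le⟩ S.gP_mem hσ, hr⟩

/-- The property passes along the listed conjugations. -/
theorem inv_cj (hJ : IsOfJankoFourTypeWith z P) (S : Invol.Setup z P) {w w' : List ℕ} {s t : List ℕ}
    {σ τ : Equiv.Perm Vec} (h : cjOK w w' s t = true) (hσ : σ ∈ S.rho.range) (hs : Rep s σ)
    (hi : Inv S σ) (ht : Rep t τ) : Inv S τ := by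
  simp only [cjOK, Bool.and_eq_true, beq_iff_eq] at h
  have hr := ((rep_word w).mul hs).mul ((rep_word w).inv h.1)
  rw [h.2] at hr
  rw [← hr.eq ht]
  exact inv_conj S hJ (S.K22_le (word_mem _)) hσ hi

/-- The relations, as propositions. -/
theorem rel_facts : gI < 256 ∧ xI < 256 ∧ SplitData.yI < 256 ∧ comp gN gN = idL ∧ comp xN xN = idL ∧
    comp yN yN = idL ∧ comp gN xN = comp xN gN ∧ comp gN yN = comp yN gN := by
  have h := relOK_true
  simp only [relOK, Bool.and_eq_true, beq_iff_eq, Nat.blt_eq] at h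
  exact ⟨h.1.1.1.1.1.1.1.1.1, h.1.1.1.1.1.1.1.1.2, h.1.1.1.1.1.1.1.2, h.1.1.1.1.1.1.2,
    h.1.1.1.1.1.2, h.1.1.1.1.2, h.1.1.2, h.1.2⟩

theorem aGrp_le_range (S : Invol.Setup z P) : aGrp ≤ S.rho.range :=
  (aGrp_le candJ_ok rep_gP.1).trans (candP_le ⟨S.K22_le⟩ S.gP_mem)

/-- The lifts of the three generators. -/
theorem exists_gens [IsSimpleGroup G] (hJ : IsOfJankoFourTypeWith z P) (S : Invol.Setup z P) :
    ∃ x y g : Subgroup.centralizer ({z} : Set G), x ∈ Lp S ∧ y ∈ Lp S ∧ g ∈ Lp S ∧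
      Rep xN (S.rho x) ∧ Rep yN (S.rho y) ∧ Rep gN (S.rho g) ∧
      x * x = 1 ∧ y * y = 1 ∧ g * g = 1 ∧ (x * y) ^ 4 = 1 ∧ g * x = x * g ∧ g * y = y * g := by
  obtain ⟨T, hTr, hTp, -⟩ := exists_mat hJ S
  obtain ⟨g0, hgE, hne⟩ := exists_fused hJ
  obtain ⟨σg, hgr, hg, hgi⟩ := inv_gN hJ S hgE hne fun a ha => by
    rw [← hTp]
    exact T.not_root (g := g0) ha.symm (fun e => hne (ha.symm.trans e))
  obtain ⟨hgI, hxI, hyI, hgg, hxx, hyy, hgx, hgy⟩ := rel_facts
  obtain ⟨σx, hxr, hx⟩ := exists_eN S hxI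
  obtain ⟨σy, hyr, hy⟩ := exists_eN S hyI
  obtain ⟨hc1, hc2, hc3, hc4, hc5⟩ : cjOK xWord xWordInv (aList.getD 0 []) xN = true ∧
      cjOK yWord yWordInv (aList.getD 0 []) yN = true ∧
      cjOK sWord sWordInv (aList.getD 0 []) (powN 2) = true ∧
      cjOK gxWord gxWordInv gN (comp gN xN) = true ∧
      cjOK gyWord gyWordInv gN (comp gN yN) = true := by
    have h := classOK_true
    simp only [classOK, Bool.and_eq_true] at h
    exact ⟨h.1.1.1.1, h.1.1.1.2, h.1.1.2, h.1.2, h.2⟩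
  obtain ⟨a, haA, -, ha⟩ := aGrp_rep candJ_ok rep_gP.1 (getD_mem [] (i := 0)
    (by rw [aList_facts.1]; norm_num))
  have har := aGrp_le_range S haA
  have hai := inv_aGrp S hJ haA
  have hxi := inv_cj hJ S hc1 har ha hai hx
  have hyi := inv_cj hJ S hc2 har ha hai hy
  have hgxi := inv_cj hJ S hc4 hgr hg hgi (hg.mul hx)
  have hgyi := inv_cj hJ S hc5 hgr hg hgi (hg.mul hy)
  have hxyi : Inv S (σx * σy * (σx * σy)) := inv_cj hJ S hc3 har ha hai (by
    have h := ((Rep.one.mul (hx.mul hy)).mul (hx.mul hy))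
    rwa [one_mul] at h)
  obtain ⟨x, hxL, ex⟩ := exists_lift S hxr
  obtain ⟨y, hyL, ey⟩ := exists_lift S hyr
  obtain ⟨g, hgL, eg⟩ := exists_lift S hgr
  have x2 := hxi x hxL ex
  have y2 := hyi y hyL ey
  have g2 := hgi g hgL eg
  refine ⟨x, y, g, hxL, hyL, hgL, ex ▸ hx, ey ▸ hy, eg ▸ hg, x2, y2, g2, ?_, ?_, ?_⟩
  · have h := hxyi (x * y * (x * y)) (mul_mem (mul_mem hxL hyL) (mul_mem hxL hyL))
      (by simp only [map_mul, ex, ey])
    simpa [pow_succ, mul_assoc] using h
  · exact comm_of_sq g2 x2 (hgxi (g * x) (mul_mem hgL hxL) (by rw [map_mul, eg, ex]))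
  · exact comm_of_sq g2 y2 (hgyi (g * y) (mul_mem hgL hyL) (by rw [map_mul, eg, ey]))

end Cfsg.Agent.JFourType.Mat.Split
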