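import Cfsg.Agent.JFourType.Mat.Final
import Cfsg.Agent.JFourType.Mat.CentLocal
import Cfsg.Agent.JFourType.TCentral

/-!
The centralizer of an element of `S.PG` lies in the normaliser of `S.KG`: the data of
`TCent.Hyp` for a setup.
-/

set_option autoImplicit false

namespace Cfsg.Agent.JFourType.Mat

open Cfsg
open Cfsg.Agent.LargeFischer Cfsg.Agent.LargeFischer.Thompson

variable {G : Type*} [Group G] [Finite G] {z : G}
  {Q : Subgroup (Subgroup.centralizer ({z} : Set G))} [Q.Normal]

namespace Setup

variable (S : Setup z Q)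

/-- The hypotheses of the abstract argument hold for a setup. -/
theorem exists_tcentHyp
    (hloc : ∀ a ∈ S.KG, IsConj z a → ∀ t ∈ S.PG,
      Subgroup.centralizer ({a} : Set G) ⊓ Subgroup.centralizer ({t} : Set G) ≤ S.Nm) :
    Nonempty (TCent.Hyp z S.KG) := by
  let _ : CommGroup ↥S.KG := TCent.elGroup S.KG_elem
  refine ⟨{
    el := S.KG_elem
    D := { f := S.mark
           sq := fun v => Subtype.ext (by
              show (v : G) * v = 1
              rw [← pow_two]
              exact S.KG_elem.2 _ v.2)
           zero := Subtype.ext (by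
              show ((S.el (pts 0) (pts 0) : ↥(Subgroup.centralizer ({z} : Set G))) : G) = 1
              rw [S.el_self]
              rfl)
           small := fun T hT he h6 e => S.pts_prod_small T.toList T.nodup_toList
              (by simpa using hT.ne_empty) (by simpa using he) (by simpa using h6)
              (by rw [Finset.prod_map_toList]; exact e)
           gen := S.mark_gen
           card := S.KG_card }
    pairs := fun v => ?_
    cent := le_of_eq S.centralizer_KG
    uniq := fun B hB hel hc => ?_
    loc := fun a ha hac t ht ht1 htz => hloc a ha hac t ⟨ht, ht1, htz⟩ }⟩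
  · constructor
    · rintro ⟨a, b, hab, rfl⟩
      have h : ((S.mark a * S.mark b : ↥S.KG) : G) ∈ S.PG := by
        rw [S.mark_mul]
        exact S.mem_PG.2 (S.el_pset (pts.injective.ne hab))
      exact ⟨h.2.1, h.2.2⟩
    · intro hv
      obtain ⟨y, hy, e⟩ := S.exists_of_PG (x := (v : G)) ⟨v.2, hv.1, hv.2⟩
      obtain ⟨p, q, hpq, rfl⟩ := S.el_surj hy
      refine ⟨pts.symm p, pts.symm q, pts.symm.injective.ne hpq, Subtype.ext ?_⟩
      show ((S.mark (pts.symm p) * S.mark (pts.symm q) : ↥S.KG) : G) = _
      rw [S.mark_mul, Equiv.apply_symm_apply, Equiv.apply_symm_apply]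
      exact e
  · haveI : Fact (Nat.Prime 2) := ⟨Nat.prime_two⟩
    have hp : IsPGroup 2 ↥(B ⊔ S.KG) :=
      IsPGroup.to_sup_of_normal_right' (isPGroup_of_elementary hel) (isPGroup_of_elementary S.KG_elem)
        hB
    exact (S.unique_in hp le_sup_right le_sup_left hel).2 hc

/-- The centralizer of a non-conjugate of `z` in `S.KG` normalises `S.KG`. -/
theorem centralizer_PG_le {t : G} (ht : t ∈ S.PG) :
    Subgroup.centralizer ({t} : Set G) ≤ S.Nm := by
  obtain ⟨H⟩ := S.exists_tcentHyp fun _ ha hac _ ht' => S.local_centralizer ha hac ht'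
  exact H.centralizer_le ht.1 ht.2.1 ht.2.2

end Setup
end Cfsg.Agent.JFourType.Mat
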